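import Mathlib
import Cfsg.Agent.Lib.Helper20.OrbitSum

set_option autoImplicit false

namespace Cfsg.Agent.Lib.Helper20

section

variable {G : Type*} [Group G] [DecidableEq G]

/-- `powCount K n c` is the number of tuples `(x₁,…,xₙ) ∈ Kⁿ` with product `c`, i.e. the coefficient
of `c` in the `n`-th power of the sum of `K` in the integral group ring. -/
def powCount (K : Finset G) : ℕ → G → ℕ
  | 0 => fun c => if c = 1 then 1 else 0
  | n + 1 => fun c => ∑ x ∈ K, powCount K n (x⁻¹ * c)

theorem powCount_zero (K : Finset G) (c : G) : powCount K 0 c = if c = 1 then 1 else 0 := rfl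

theorem powCount_succ (K : Finset G) (n : ℕ) (c : G) :
    powCount K (n + 1) c = ∑ x ∈ K, powCount K n (x⁻¹ * c) := rfl

variable [Fintype G]

/-- Convolution with the sum of `K` on functions with values in `ZMod p`. -/
def convOp (p : ℕ) (K : Finset G) : (G → ZMod p) →ₗ[ZMod p] (G → ZMod p) where
  toFun f := fun c => ∑ x ∈ K, f (x⁻¹ * c)
  map_add' f g := by ext c; simp [Finset.sum_add_distrib]
  map_smul' a f := by ext c; simp [Finset.mul_sum]

omit [DecidableEq G] [Fintype G] in
theorem convOp_apply (p : ℕ) (K : Finset G) (f : G → ZMod p) (c : G) :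
    convOp p K f c = ∑ x ∈ K, f (x⁻¹ * c) := rfl

/-- Left translation. -/
def translOp (p : ℕ) (u : G) : (G → ZMod p) →ₗ[ZMod p] (G → ZMod p) where
  toFun f := fun c => f (u⁻¹ * c)
  map_add' f g := by ext c; simp
  map_smul' a f := by ext c; simp

omit [DecidableEq G] [Fintype G] in
theorem translOp_apply (p : ℕ) (u : G) (f : G → ZMod p) (c : G) :
    translOp p u f c = f (u⁻¹ * c) := rfl

omit [Fintype G] in
theorem convOp_pow_delta (p : ℕ) (K : Finset G) (n : ℕ) (c : G) :
    ((convOp p K) ^ n) (fun c => if c = 1 then 1 else 0) c = (powCount K n c : ZMod p) := by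
  induction n generalizing c with
  | zero => simp [powCount_zero]
  | succ n ih =>
    rw [pow_succ', Module.End.mul_apply, convOp_apply, powCount_succ]
    push_cast
    exact Finset.sum_congr rfl (fun x _ => ih _)

omit [Fintype G] [DecidableEq G] in
theorem translOp_comm (p : ℕ) (K : Finset G) (hK : ∀ x ∈ K, ∀ g : G, g * x * g⁻¹ ∈ K) (u : G) :
    Commute (translOp p u) (convOp p K) := by
  ext f c
  simp only [Module.End.mul_apply, translOp_apply, convOp_apply]
  refine Finset.sum_bij (fun x _ => u * x * u⁻¹) (fun x hx => hK x hx u) ?_ ?_ ?_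
  · intro a _ b _ h
    simpa using h
  · intro b hb
    refine ⟨u⁻¹ * b * u, ?_, by simp [mul_assoc]⟩
    simpa using hK b hb u⁻¹
  · intro x _
    congr 1
    simp [mul_assoc]

/-- NILPOTENCY of class sums modulo `p`: if `P` is a normal `p`-subgroup and `K` is a
conjugation-invariant set of elements none of which centralizes `P`, then some power of the sum of
`K` in the integral group ring has all coefficients divisible by `p`. -/
theorem exists_powCount_dvd (p : ℕ) [Fact p.Prime] (P : Subgroup G) [P.Normal] (hP : IsPGroup p P)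
    (K : Finset G) (hK : ∀ x ∈ K, ∀ g : G, g * x * g⁻¹ ∈ K)
    (hKP : ∀ x ∈ K, x ∉ Subgroup.centralizer (P : Set G)) :
    ∃ n : ℕ, ∀ c : G, p ∣ powCount K n c := by
  set T := convOp p K with hT
  have hc := LinearMap.isCompl_iSup_ker_pow_iInf_range_pow T
  set W : Submodule (ZMod p) (G → ZMod p) := ⨅ n, LinearMap.range (T ^ n) with hW
  have hWinv : ∀ (u : G) (w : G → ZMod p), w ∈ W → translOp p u w ∈ W := by
    intro u w hw
    rw [hW, Submodule.mem_iInf] at hw ⊢
    intro n
    obtain ⟨v, hv⟩ := hw n
    refine ⟨translOp p u v, ?_⟩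
    have := ((translOp_comm p K hK u).pow_right n).eq
    have h2 := congrArg (fun S => S v) this
    simp only [Module.End.mul_apply] at h2
    rw [← h2, hv]
  have hWbot : W = ⊥ := by
    by_contra hne
    let act : MulAction P W :=
      { smul := fun u w => ⟨translOp p (u : G) w.1, hWinv u w.1 w.2⟩
        one_smul := fun w => by
          apply Subtype.ext
          ext c
          show translOp p ((1 : P) : G) w.1 c = w.1 c
          simp [translOp_apply]
        mul_smul := fun u v w => by
          apply Subtype.ext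
          ext c
          show translOp p ((u * v : P) : G) w.1 c = translOp p (u : G) (translOp p (v : G) w.1) c
          simp [translOp_apply, mul_assoc] }
    have hsm : ∀ (u : P) (w : W), ((u • w : W) : G → ZMod p) = translOp p (u : G) w.1 :=
      fun _ _ => rfl
    have hcard : p ∣ Nat.card W := by
      rw [Module.natCard_eq_pow_finrank (K := ZMod p) (V := W), Nat.card_zmod]
      exact dvd_pow_self p (by
        have := (Submodule.one_le_finrank_iff (S := W)).2 hne
        omega)
    have h0 : (0 : W) ∈ MulAction.fixedPoints P W := by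
      intro u
      apply Subtype.ext
      rw [hsm]
      simp
    obtain ⟨b, hb, hb0⟩ := hP.exists_fixed_point_of_prime_dvd_card_of_fixed_point W hcard h0
    -- `b` is invariant under left translation by `P`
    have hbl : ∀ (u : G), u ∈ P → ∀ c, b.1 (u * c) = b.1 c := by
      intro u hu c
      have := congrFun (congrArg Subtype.val (hb ⟨u⁻¹, P.inv_mem hu⟩)) c
      rw [hsm, translOp_apply] at this
      simpa using this
    have hTb : T b.1 = 0 := by
      ext c
      rw [hT, convOp_apply, Pi.zero_apply]
      let actK : MulAction P {x // x ∈ K} :=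
        { smul := fun u x => ⟨(u : G) * x.1 * (u : G)⁻¹, hK x.1 x.2 u⟩
          one_smul := fun x => by
            apply Subtype.ext
            show ((1 : P) : G) * x.1 * ((1 : P) : G)⁻¹ = x.1
            simp
          mul_smul := fun u v x => by
            apply Subtype.ext
            show ((u * v : P) : G) * x.1 * ((u * v : P) : G)⁻¹ =
              (u : G) * ((v : G) * x.1 * (v : G)⁻¹) * (u : G)⁻¹
            simp [mul_assoc] }
      have hsmK : ∀ (u : P) (x : {x // x ∈ K}), ((u • x : {x // x ∈ K}) : G) =
          (u : G) * x.1 * (u : G)⁻¹ := fun _ _ => rfl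
      obtain ⟨a, -, ha⟩ := orbit_sum hP (X := {x // x ∈ K}) (⊤ : AddSubgroup (ZMod p))
        (fun x => b.1 (x.1⁻¹ * c)) (by
          intro u x
          show b.1 (((u • x : {x // x ∈ K}) : G)⁻¹ * c) = b.1 (x.1⁻¹ * c)
          rw [hsmK]
          have e1 : ((u : G) * x.1 * (u : G)⁻¹)⁻¹ * c =
              (u : G) * ((x.1⁻¹ * c) * (c⁻¹ * (u : G)⁻¹ * c)) := by group
          have e2 : (x.1⁻¹ * c) * (c⁻¹ * (u : G)⁻¹ * c) =
              ((x.1⁻¹ * c) * (c⁻¹ * (u : G)⁻¹ * c) * (x.1⁻¹ * c)⁻¹) * (x.1⁻¹ * c) := by group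
          have hn1 : c⁻¹ * (u : G)⁻¹ * c ∈ P := by
            have := ‹P.Normal›.conj_mem _ (P.inv_mem u.2) c⁻¹
            simpa using this
          have hn2 : (x.1⁻¹ * c) * (c⁻¹ * (u : G)⁻¹ * c) * (x.1⁻¹ * c)⁻¹ ∈ P :=
            ‹P.Normal›.conj_mem _ hn1 _
          rw [e1, hbl _ u.2, e2, hbl _ hn2]) (fun _ => trivial)
      rw [← Finset.sum_coe_sort K (fun x => b.1 (x⁻¹ * c)), ha, Finset.sum_eq_zero, zero_add]
      · simp
      · intro x hx
        exfalso
        have hx : x ∈ MulAction.fixedPoints P {x // x ∈ K} := by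
          classical
          simpa using hx
        apply hKP x.1 x.2
        rw [Subgroup.mem_centralizer_iff]
        intro u hu
        have := congrArg Subtype.val (hx ⟨u, hu⟩)
        rw [hsmK] at this
        exact mul_inv_eq_iff_eq_mul.1 this
    have hbker : b.1 ∈ ⨆ n, LinearMap.ker (T ^ n) := by
      apply Submodule.mem_iSup_of_mem 1
      rw [pow_one, LinearMap.mem_ker]
      exact hTb
    have := Submodule.disjoint_def.1 hc.1 b.1 hbker b.2
    exact hb0 (Subtype.ext this.symm)
  have htop : ⨆ n, LinearMap.ker (T ^ n) = ⊤ := by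
    have := hc.sup_eq_top
    rwa [hWbot, sup_bot_eq] at this
  obtain ⟨n, hn⟩ := (LinearMap.eventually_iSup_ker_pow_eq T).exists
  rw [htop] at hn
  refine ⟨n, fun c => ?_⟩
  have h1 : (fun c : G => if c = 1 then (1 : ZMod p) else 0) ∈ LinearMap.ker (T ^ n) := by
    rw [← hn]; trivial
  rw [LinearMap.mem_ker] at h1
  have h2 := congrFun h1 c
  rw [hT, convOp_pow_delta, Pi.zero_apply] at h2
  exact (ZMod.natCast_eq_zero_iff _ _).1 h2

end

end Cfsg.Agent.Lib.Helper20
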