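import Mathlib
import Cfsg.Agent.Lib.Helper20.ClassNilp

set_option autoImplicit false

namespace Cfsg.Agent.Lib.Helper20

section

variable {G : Type*} [Group G] [DecidableEq G] [Fintype G]

theorem sum_single_pow (F : Type*) [Semiring F] (K : Finset G) (n : ℕ) :
    (∑ x ∈ K, MonoidAlgebra.single x (1 : F)) ^ n =
      ∑ c : G, MonoidAlgebra.single c (powCount K n c : F) := by
  induction n with
  | zero =>
    rw [pow_zero, MonoidAlgebra.one_def, Finset.sum_eq_single (1 : G)]
    · simp [powCount_zero]
    · intro c _ hc
      simp [powCount_zero, hc]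
    · intro h; exact absurd (Finset.mem_univ _) h
  | succ n ih =>
    rw [pow_succ', ih, Finset.sum_mul]
    simp only [Finset.mul_sum, MonoidAlgebra.single_mul_single, one_mul, powCount_succ,
      Nat.cast_sum]
    have h1 : ∀ x : G, ∑ c : G, MonoidAlgebra.single (x * c) (powCount K n c : F) =
        ∑ c : G, MonoidAlgebra.single c (powCount K n (x⁻¹ * c) : F) := by
      intro x
      rw [← Equiv.sum_comp (Equiv.mulLeft x)
        (fun c => MonoidAlgebra.single c (powCount K n (x⁻¹ * c) : F))]
      simp
    simp only [h1]
    rw [Finset.sum_comm]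
    apply Finset.sum_congr rfl
    intro c _
    exact (map_sum (MonoidAlgebra.singleAddHom c) _ _).symm

end

end Cfsg.Agent.Lib.Helper20
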