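import Cfsg.Agent.Lib.Helper20.MaxPair
import Cfsg.Agent.Lib.Helper80.GAIndT
import Cfsg.Agent.Lib.Helper80.GALocNil
import Cfsg.Agent.Lib.Helper80.GAUp
import Cfsg.Agent.Lib.Helper29.HKTrans
import Cfsg.Agent.Lib.Helper21.Tower

set_option autoImplicit false
set_option linter.unusedSectionVars false
set_option linter.style.haveILetI false

/-!
# Abelian defect groups: nilpotency of the blocks of `C_G(Q)` below a maximal pair
-/

namespace Cfsg.Agent.Lib.Helper20

open Cfsg Cfsg.Agent.Lib.Helper81 Cfsg.Agent.Lib.Helper19 Cfsg.Agent.Lib.Helper21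
open Cfsg.Agent.Lib.Helper80 Cfsg.Agent.Lib.Helper80.GA Cfsg.Agent.Lib.Helper29
open scoped ComplexConjugate

variable {G : Type*} [Group G] [Fintype G] {p : ℕ} [Fact p.Prime] {M : Ideal AlgInt}

/-- nilpotency of a block `φ` of `L ≥ C_G(P)` with abelian defect group `P`, in terms of the
stabiliser in `G` of a root. -/
theorem nilB_iff_of_abelian (hM : IsPModular p M) {L P : Subgroup G} [Fintype L] (hPL : P ≤ L)
    (hCL : Cn P ≤ L) (hab : ∀ x ∈ P, ∀ y ∈ P, x * y = y * x) {e₀ : GA (Kr hM) G}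
    (he₀ : IsBP p P e₀) {φ : GA (Kr hM) L} (hφ : IsBlk ⊤ φ) (hbr : br P (emb L φ) * e₀ = e₀)
    (hdef : IsDef p ⊤ φ (P.subgroupOf L)) :
    NilB p φ ↔ ∀ g ∈ L, g ∈ stabP P e₀ → g ∈ Cn P := by
  have hup : up L (P.subgroupOf L) = P := up_subgroupOf L hPL
  have hemb : emb L (rst L e₀) = e₀ := emb_rst L (he₀.2.inZ.1.mono hCL)
  have hupC : up L (Cn (P.subgroupOf L)) = Cn P := by
    rw [up_Cn, hup]; exact inf_eq_right.2 hCL
  have hblk : IsBlk (Cn (P.subgroupOf L)) (rst L e₀) := by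
    rw [← isBlk_up_iff, hupC, hemb]; exact he₀.2
  have hbp : IsBP p (P.subgroupOf L) (rst L e₀) := ⟨hdef.pgroup, hblk⟩
  have hof : IsBPOf p φ (P.subgroupOf L) (rst L e₀) := by
    refine ⟨hbp, hφ, ?_⟩
    apply emb_injective L
    rw [emb_mul, emb_br, hup, hemb, hbr]
  have hmax : IsMaxBP p φ (P.subgroupOf L) (rst L e₀) := hof.isMaxBP_of_isDef hdef
  have hab' : ∀ x ∈ P.subgroupOf L, ∀ y ∈ P.subgroupOf L, x * y = y * x := by
    intro x hx y hy
    apply Subtype.ext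
    exact hab x (Subgroup.mem_subgroupOf.1 hx) y (Subgroup.mem_subgroupOf.1 hy)
  have hsup : P.subgroupOf L ⊔ Cn (P.subgroupOf L) = Cn (P.subgroupOf L) :=
    sup_eq_right.2 (le_Cn_of_abelian hab' le_rfl)
  have hsp : ∀ z, InZ (P.subgroupOf L ⊔ Cn (P.subgroupOf L)) z →
      ∃ c : Kr hM, IsNilpotent (z * rst L e₀ - c • rst L e₀) := by
    rw [hsup]
    exact split_sub hM hblk
  rw [hmax.abelian_nilB_iff hab' hsp]
  have hst : ∀ x : L, x ∈ stabP (P.subgroupOf L) (rst L e₀) ↔ (x : G) ∈ stabP P e₀ := by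
    intro x
    rw [mem_stabP, mem_stabP]
    have h1 : x ∈ Nn (P.subgroupOf L) ↔ (x : G) ∈ Nn P := by
      rw [← coe_mem_up L (R := Nn (P.subgroupOf L)), up_Nn, hup, Subgroup.mem_inf]
      exact ⟨fun h => h.2, fun h => ⟨x.2, h⟩⟩
    have h2 : cj x (rst L e₀) = rst L e₀ ↔ cj (x : G) e₀ = e₀ := by
      constructor
      · intro h
        have := congrArg (emb L) h
        rwa [emb_cj, hemb] at this
      · intro h
        apply emb_injective L
        rw [emb_cj, hemb, h]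
    rw [h1, h2]
  have hcn : ∀ x : L, x ∈ Cn (P.subgroupOf L) ↔ (x : G) ∈ Cn P := by
    intro x
    rw [← coe_mem_up L (R := Cn (P.subgroupOf L)), hupC]
  constructor
  · intro h g hgL hg
    exact (hcn ⟨g, hgL⟩).1 (h ((hst ⟨g, hgL⟩).2 hg))
  · intro h x hx
    exact (hcn x).2 (h x x.2 ((hst x).1 hx))

/-- the block of `C_G(Q)` induced by the root `c` of a block with abelian defect group `P ≥ Q` is
nilpotent iff `C_G(Q) ∩ N_G(P, c) ≤ C_G(P)`. -/
theorem isNilpotentBlock_iff_of_inducedIn (hM : IsPModular p M) {B : Set (IrrCharacter G)}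
    {P : Subgroup G} (hPD : IsDefectGroup p M B P) (hab : ∀ x ∈ P, ∀ y ∈ P, x * y = y * x)
    {c : Set (IrrCharacter (Cn P))} (hc : IsInducedBlock M (Cn P) c B) {Q : Subgroup G}
    (hQP : Q ≤ P) {f : Set (IrrCharacter (Cn Q))} (hf : IsInducedBlockIn M (Cn Q) (Cn P) c f) :
    IsNilpotentBlock p M f ↔ ∀ g ∈ Cn Q, g ∈ stabP P (bl hM (Cn P) c) → g ∈ Cn P := by
  haveI : Fintype (Cn Q) := Fintype.ofFinite _
  have hmaxB := isMaxBP_of_isMaximalBrauerPair hM (isMaximalBrauerPair_of_isInducedBlock hM hPD hc)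
  have he₀ : IsBP p P (bl hM (Cn P) c) := hmaxB.1.1
  have hPC : P ≤ Cn P := le_Cn_of_abelian hab le_rfl
  have hPQ : P ≤ Cn Q := le_Cn_of_abelian hab hQP
  have hbr : br P (bl hM (Cn Q) f) * bl hM (Cn P) c = bl hM (Cn P) c :=
    Kn.br_mul_bl_of_inducedIn hM he₀.1 hPC (Cn_anti hQP) inf_le_left (Cn_le_Nn P) hf
  have hfb : IsBlk (Cn Q) (bl hM (Cn Q) f) := isBlk_bl hM _ hf.2.1
  have hns : NSub p Q (bl hM (Cn Q) f) P (bl hM (Cn P) c) :=
    ⟨⟨he₀.1.to_le hQP, hfb⟩, he₀, hQP, hPQ.trans (Cn_le_Nn Q), hfb.inZ.2.mono hPQ, hbr⟩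
  have hle : BPLE p (Q, bl hM (Cn Q) f) (P, bl hM (Cn P) c) := Relation.ReflTransGen.single hns
  have hdefG : IsDef p (Cn Q) (bl hM (Cn Q) f) P := hmaxB.abelian_isDef_Cn hab hle
  have hdef : IsDef p ⊤ (blkR hM f) (P.subgroupOf (Cn Q)) :=
    isDef_of_isDefectGroup hM hf.2.1 ((isDefectGroup_sub_iff hM (Cn Q) hf.2.1 hPQ).2 hdefG)
  rw [isNilpotentBlock_iff hM hf.2.1]
  apply nilB_iff_of_abelian hM hPQ (Cn_anti hQP) hab he₀ (isBlk_blkR hM hf.2.1) _ hdef
  rw [← bl_eq_emb]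
  exact hbr

/-- relative induction from ordinary induction inside the group `L`. -/
theorem isInducedBlockIn_of_downBlock {K L : Subgroup G} (hKL : K ≤ L)
    {c : Set (IrrCharacter K)} {f : Set (IrrCharacter L)} (hc : IsPBlock M c)
    (h : IsInducedBlock M (K.subgroupOf L) (downBlock hKL c) f) : IsInducedBlockIn M L K c f := by
  refine ⟨hc, h.2.1, ?_⟩
  intro ξ hξ χ hχ x
  have h1 := h.2.2 (irrCongr (Subgroup.subgroupOfEquivOfLe hKL) ξ) ⟨ξ, hξ, rfl⟩ χ hχ x
  have h2 : inducedCentralChar (K.subgroupOf L)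
      ((irrCongr (Subgroup.subgroupOfEquivOfLe hKL) ξ : IrrCharacter (K.subgroupOf L)) :
        K.subgroupOf L → ℂ) x = inducedCentralCharIn L K (ξ : K → ℂ) (x : G) := by
    unfold inducedCentralChar inducedCentralCharIn
    apply finsum_mem_eq_of_bijOn (Subgroup.subgroupOfEquivOfLe hKL)
    · apply (Subgroup.subgroupOfEquivOfLe hKL).toEquiv.bijOn
      intro a
      simp only [Set.mem_ofPred_eq]
      constructor
      · rintro ⟨y, hy⟩
        rw [_root_.isConj_iff]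
        refine ⟨y⁻¹, ?_⟩
        apply Subtype.ext
        have hy' : (y : G) * ((a : L) : G) * (y : G)⁻¹ = (x : G) := hy
        simp only [Subgroup.coe_mul, Subgroup.coe_inv, inv_inv]
        rw [← hy']; group
      · intro hconj
        obtain ⟨y, hy⟩ := _root_.isConj_iff.1 hconj
        refine ⟨y⁻¹, ?_⟩
        have hy' : (y : G) * (x : G) * (y : G)⁻¹ = ((a : L) : G) := congrArg Subtype.val hy
        show ((y⁻¹ : L) : G) * ((a : L) : G) * ((y⁻¹ : L) : G)⁻¹ = (x : G)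
        rw [← hy']
        simp only [Subgroup.coe_inv]
        group
    · intro a _
      rfl
  rw [h2] at h1
  exact h1

/-- existence of the block of `C_G(Q)` induced by a block of `C_G(P)`, `Q ≤ P` abelian. -/
theorem exists_isInducedBlockIn (hM : IsPModular p M) {P Q : Subgroup G} (hP : IsPGroup p P)
    (hab : ∀ x ∈ P, ∀ y ∈ P, x * y = y * x) (hQP : Q ≤ P) {c : Set (IrrCharacter (Cn P))}
    (hc : IsPBlock M c) :
    ∃ f : Set (IrrCharacter (Cn Q)), IsInducedBlockIn M (Cn Q) (Cn P) c f := by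
  haveI : Fintype (Cn Q) := Fintype.ofFinite _
  have hPC : P ≤ Cn P := le_Cn_of_abelian hab le_rfl
  have hPQ : P ≤ Cn Q := le_Cn_of_abelian hab hQP
  have hKL : Cn P ≤ Cn Q := Cn_anti hQP
  obtain ⟨f, hf⟩ := Cfsg.Agent.S0919.result p M hM (P.subgroupOf (Cn Q))
    ((Cn P).subgroupOf (Cn Q)) hP.comap_subtype
    (by
      intro x hx
      exact Subgroup.mem_subgroupOf.2 (hPC (Subgroup.mem_subgroupOf.1 hx)))
    (by
      intro x hx
      rw [Subgroup.mem_subgroupOf, mem_Cn]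
      intro u hu
      have := Subgroup.mem_centralizer_iff.1 hx ⟨u, hPQ hu⟩ (Subgroup.mem_subgroupOf.2 hu)
      exact congrArg Subtype.val this)
    (by
      intro x hx
      have h1 : (x : G) ∈ Nn P := Cn_le_Nn P (Subgroup.mem_subgroupOf.1 hx)
      have h2 : (x : G) ∈ up (Cn Q) (Nn (P.subgroupOf (Cn Q))) := by
        rw [up_Nn, up_subgroupOf _ hPQ]
        exact ⟨x.2, h1⟩
      exact (coe_mem_up _).1 h2)
    (downBlock hKL c) (isPBlock_downBlock hKL hc)
  exact ⟨f, isInducedBlockIn_of_downBlock hKL hc hf⟩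

end Cfsg.Agent.Lib.Helper20
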