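import Cfsg.Agent.Lib.Helper5.KleinData
import Cfsg.Agent.Lib.Helper29.PerfP
import Cfsg.Agent.Lib.Helper81.ClassAlg

set_option autoImplicit false
set_option linter.unusedSectionVars false
set_option linter.style.haveILetI false

/-!
# Abstract assembly of the perfect isometry for Klein four blocks (rung A of the S4638 ladder)
-/

namespace Cfsg.Agent.Lib.Helper20

open Cfsg Cfsg.Agent.Lib.Helper5 Cfsg.Agent.Lib.Helper81 Cfsg.Agent.Lib.Helper29

universe u v

theorem finsum_mem_eq_sum_fin {α : Type*} {B : Set α} {n : ℕ} (e : Fin n ≃ B) (f : α → ℂ) :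
    ∑ᶠ χ ∈ B, f χ = ∑ i : Fin n, f (e i) := by
  rw [← finsum_set_coe_eq_finsum_mem B, ← finsum_comp_equiv e, finsum_eq_sum_of_fintype]

theorem irr_memLocalRing {p : ℕ} {M : Ideal AlgInt} (hM : IsPModular p M) {G : Type*} [Group G]
    [Finite G] (χ : IrrCharacter G) (g : G) : MemLocalRing M ((χ : G → ℂ) g) :=
  memLocalRing_of_isIntegral hM (isCharacter_isIntegral (isCharacter_of_isIrrCharacter χ.2) g)

/-- the kernel attached to enumerations of the two blocks -/
noncomputable def muF {G : Type u} {H : Type v} [Group G] [Group H] (X : Fin 4 → IrrCharacter G)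
    (Y : Fin 4 → IrrCharacter H) (e : Fin 4 → ℤ) (x : G) (y : H) : ℂ :=
  ∑ i, (e i : ℂ) * (X i : G → ℂ) x * (Y i : H → ℂ) y

section Core

variable {M : Ideal AlgInt} {G : Type u} {H : Type v} [Group G] [Finite G] [Group H] [Finite H]
  {B : Set (IrrCharacter G)} {c : Set (IrrCharacter H)}
  {X : Fin 4 → IrrCharacter G} {Y : Fin 4 → IrrCharacter H} {e : Fin 4 → ℤ}

theorem muF_zero_left (hB : KData M B) (hXB : ∀ i, X i ∈ B)
    (K3 : ∀ a, SRel B a → ∀ t : H, IsPRegular 2 t →
      ∑ i, (e i : ℂ) * (a (X i) : ℂ) * (Y i : H → ℂ) t = 0)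
    {x : G} (hx : ¬ IsPRegular 2 x) {y : H} (hy : IsPRegular 2 y) : muF X Y e x y = 0 := by
  obtain ⟨ι, _, a, w, ha, -, -, hval⟩ := hB.sing x hx
  have h1 : muF X Y e x y = ∑ j, w j * ∑ i, (e i : ℂ) * (a j (X i) : ℂ) * (Y i : H → ℂ) y := by
    unfold muF
    simp_rw [hval _ (hXB _), Finset.mul_sum, Finset.sum_mul]
    rw [Finset.sum_comm]
    apply Finset.sum_congr rfl; intro j _
    apply Finset.sum_congr rfl; intro i _
    ring
  rw [h1]
  apply Finset.sum_eq_zero; intro j _
  rw [K3 (a j) (ha j) y hy, mul_zero]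

theorem muF_zero_right (hc : KData M c) (hYc : ∀ i, Y i ∈ c)
    (K2 : ∀ a', SRel c a' → ∀ t : G, IsPRegular 2 t →
      ∑ i, (e i : ℂ) * (a' (Y i) : ℂ) * (X i : G → ℂ) t = 0)
    {x : G} (hx : IsPRegular 2 x) {y : H} (hy : ¬ IsPRegular 2 y) : muF X Y e x y = 0 := by
  obtain ⟨ι, _, a, w, ha, -, -, hval⟩ := hc.sing y hy
  have h1 : muF X Y e x y = ∑ j, w j * ∑ i, (e i : ℂ) * (a j (Y i) : ℂ) * (X i : G → ℂ) x := by
    unfold muF
    simp_rw [hval _ (hYc _), Finset.mul_sum]
    rw [Finset.sum_comm]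
    apply Finset.sum_congr rfl; intro j _
    apply Finset.sum_congr rfl; intro i _
    ring
  rw [h1]
  apply Finset.sum_eq_zero; intro j _
  rw [K2 (a j) (ha j) x hx, mul_zero]

theorem isPerfectFun_muF (hM : IsPModular 2 M) (hB : KData M B) (hc : KData M c)
    (hXB : ∀ i, X i ∈ B) (hYc : ∀ i, Y i ∈ c)
    (K1 : ∀ a a', SRel B a → SRel c a' → (4 : ℤ) ∣ ∑ i, e i * a (X i) * a' (Y i))
    (K2 : ∀ a', SRel c a' → ∀ t : G, IsPRegular 2 t →
      ∑ i, (e i : ℂ) * (a' (Y i) : ℂ) * (X i : G → ℂ) t = 0)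
    (K3 : ∀ a, SRel B a → ∀ t : H, IsPRegular 2 t →
      ∑ i, (e i : ℂ) * (a (X i) : ℂ) * (Y i : H → ℂ) t = 0) :
    IsPerfectFun 2 M (muF X Y e) := by
  classical
  haveI : Fintype G := Fintype.ofFinite G
  haveI : Fintype H := Fintype.ofFinite H
  intro x y
  by_cases hx : IsPRegular 2 x
  · by_cases hy : IsPRegular 2 y
    · refine ⟨?_, ?_, Or.inl ⟨fun _ => hy, fun _ => hx⟩⟩
      · have := perfP hM (Finset.univ : Finset (Fin 4))
          (fun i => (e i : ℂ) * (Y i : H → ℂ) y) X
          (fun i _ => memLocalRing_mul hM (memLocalRing_intCast hM _) (irr_memLocalRing hM _ _))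
          (by
            intro g hg
            have := muF_zero_left (e := e) (Y := Y) hB hXB K3 hg hy
            unfold muF at this
            rw [← this]
            apply Finset.sum_congr rfl; intro i _; ring) x
        have h2 : muF X Y e x y = ∑ i, (e i : ℂ) * (Y i : H → ℂ) y * (X i : G → ℂ) x := by
          unfold muF
          apply Finset.sum_congr rfl; intro i _; ring
        rw [h2]; exact this
      · have := perfP hM (Finset.univ : Finset (Fin 4))
          (fun i => (e i : ℂ) * (X i : G → ℂ) x) Y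
          (fun i _ => memLocalRing_mul hM (memLocalRing_intCast hM _) (irr_memLocalRing hM _ _))
          (by
            intro g hg
            exact muF_zero_right (e := e) (X := X) hc hYc K2 hx hg) y
        exact this
    · rw [muF_zero_right hc hYc K2 hx hy]
      simp only [zero_div]
      exact ⟨memLocalRing_zero hM, memLocalRing_zero hM, Or.inr trivial⟩
  · by_cases hy : IsPRegular 2 y
    · rw [muF_zero_left hB hXB K3 hx hy]
      simp only [zero_div]
      exact ⟨memLocalRing_zero hM, memLocalRing_zero hM, Or.inr trivial⟩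
    · obtain ⟨ι, _, a, w, ha, hw, hw4, hval⟩ := hB.sing x hx
      obtain ⟨ι', _, a', w', ha', hw', hw4', hval'⟩ := hc.sing y hy
      choose n hn using fun (j : ι) (k : ι') => K1 (a j) (a' k) (ha j) (ha' k)
      have h1 : muF X Y e x y = ∑ j, ∑ k, (n j k : ℂ) * (4 * w j) * w' k := by
        have h2 : ∀ j k, (4 : ℂ) * (n j k : ℂ)
            = ∑ i, (e i : ℂ) * (a j (X i) : ℂ) * (a' k (Y i) : ℂ) := by
          intro j k
          have := congrArg (fun z : ℤ => (z : ℂ)) (hn j k)
          push_cast at this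
          rw [← this]
        have h3 : ∀ j k, (n j k : ℂ) * (4 * w j) * w' k
            = ∑ i, (e i : ℂ) * ((a j (X i) : ℂ) * w j) * ((a' k (Y i) : ℂ) * w' k) := by
          intro j k
          calc (n j k : ℂ) * (4 * w j) * w' k = (4 * (n j k : ℂ)) * (w j * w' k) := by ring
            _ = _ := by
              rw [h2, Finset.sum_mul]
              apply Finset.sum_congr rfl; intro i _; ring
        simp_rw [h3]
        unfold muF
        simp_rw [hval _ (hXB _), hval' _ (hYc _)]
        have h4 : ∀ i : Fin 4, (e i : ℂ) * (∑ j, (a j (X i) : ℂ) * w j) *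
            (∑ k, (a' k (Y i) : ℂ) * w' k)
            = ∑ j, ∑ k, (e i : ℂ) * ((a j (X i) : ℂ) * w j) * ((a' k (Y i) : ℂ) * w' k) := by
          intro i
          rw [mul_assoc, Finset.sum_mul_sum, Finset.mul_sum]
          apply Finset.sum_congr rfl; intro j _
          rw [Finset.mul_sum]
          apply Finset.sum_congr rfl; intro k _
          ring
        simp_rw [h4]
        rw [Finset.sum_comm]
        apply Finset.sum_congr rfl; intro j _
        rw [Finset.sum_comm]
      refine ⟨?_, ?_, Or.inl ⟨fun h => absurd h hx, fun h => absurd h hy⟩⟩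
      · rw [h1, Finset.sum_div]
        apply memLocalRing_sum hM; intro j _
        rw [Finset.sum_div]
        apply memLocalRing_sum hM; intro k _
        have : (n j k : ℂ) * (4 * w j) * w' k / (Nat.card (Subgroup.centralizer ({x} : Set G)) : ℂ)
            = (n j k : ℂ) * (4 * w j / (Nat.card (Subgroup.centralizer ({x} : Set G)) : ℂ))
              * w' k := by ring
        rw [this]
        exact memLocalRing_mul hM (memLocalRing_mul hM (memLocalRing_intCast hM _) (hw4 j)) (hw' k)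
      · rw [h1, Finset.sum_div]
        apply memLocalRing_sum hM; intro j _
        rw [Finset.sum_div]
        apply memLocalRing_sum hM; intro k _
        have : (n j k : ℂ) * (4 * w j) * w' k / (Nat.card (Subgroup.centralizer ({y} : Set H)) : ℂ)
            = (n j k : ℂ) * w j
              * (4 * w' k / (Nat.card (Subgroup.centralizer ({y} : Set H)) : ℂ)) := by ring
        rw [this]
        exact memLocalRing_mul hM (memLocalRing_mul hM (memLocalRing_intCast hM _) (hw j)) (hw4' k)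

end Core

theorem four_dvd_of_balanced {a0 a1 a2 a3 b0 b1 b2 b3 : ℤ} (ha0 : a0 = 1 ∨ a0 = -1)
    (ha1 : a1 = 1 ∨ a1 = -1) (ha2 : a2 = 1 ∨ a2 = -1) (ha3 : a3 = 1 ∨ a3 = -1)
    (hb0 : b0 = 1 ∨ b0 = -1) (hb1 : b1 = 1 ∨ b1 = -1) (hb2 : b2 = 1 ∨ b2 = -1)
    (hb3 : b3 = 1 ∨ b3 = -1) (ha : a0 + a1 + a2 + a3 = 0) (hb : b0 + b1 + b2 + b3 = 0) :
    (4 : ℤ) ∣ a0 * b0 + a1 * b1 + a2 * b2 + a3 * b3 := by
  rcases ha0 with rfl | rfl <;> rcases ha1 with rfl | rfl <;> rcases ha2 with rfl | rfl <;>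
    rcases ha3 with rfl | rfl <;> first
    | (exfalso; omega)
    | (rcases hb0 with rfl | rfl <;> rcases hb1 with rfl | rfl <;> rcases hb2 with rfl | rfl <;>
        rcases hb3 with rfl | rfl <;> first
        | (exfalso; omega)
        | decide)

section Final

variable {G : Type u} [Group G] [Finite G] {B : Set (IrrCharacter G)}

theorem srel_sum (e : Fin 4 ≃ B) {a : IrrCharacter G → ℤ} (ha : SRel B a) {t : G}
    (ht : IsPRegular 2 t) :
    ∑ i, (a (e i) : ℂ) * ((e i : IrrCharacter G) : G → ℂ) t = 0 := by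
  have := ha.2 t ht
  rwa [finsum_mem_eq_sum_fin e (fun χ => (a χ : ℂ) * (χ : G → ℂ) t)] at this

theorem isPRegular_two_one : IsPRegular 2 (1 : G) := by
  simp [IsPRegular]

theorem balanced_of_KR1 (e : Fin 4 ≃ B) (hK : KR1 B) {a : IrrCharacter G → ℤ} (ha : SRel B a) :
    ∑ i, a (e i) = 0 := by
  have h1 := srel_sum e ha (isPRegular_two_one (G := G))
  have h2 : ∀ i, ((e i : IrrCharacter G) : G → ℂ) 1 = ((e 0 : IrrCharacter G) : G → ℂ) 1 :=
    fun i => hK _ (e i).2 _ (e 0).2 1 isPRegular_two_one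
  simp_rw [h2, ← Finset.sum_mul] at h1
  rcases mul_eq_zero.1 h1 with h | h
  · exact_mod_cast h
  · exact absurd h (irr_one_ne_zero (e 0 : IrrCharacter G).2)

end Final

theorem perfect_of_kdata {M : Ideal AlgInt} (hM : IsPModular 2 M) {G : Type u} {H : Type v}
    [Group G] [Finite G] [Group H] [Finite H] {B : Set (IrrCharacter G)}
    {c : Set (IrrCharacter H)} (hB : KData M B) (hc : KData M c)
    (halt : (KR1 B ∧ KR1 c) ∨ (KR3 B ∧ KR3 c)) :
    ∃ (I : IrrCharacter H → IrrCharacter G) (ε : IrrCharacter H → ℤ),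
      IsPerfectIsometry 2 M c B I ε := by
  classical
  haveI : Finite B := Nat.finite_of_card_ne_zero (by rw [hB.card]; norm_num)
  haveI : Finite c := Nat.finite_of_card_ne_zero (by rw [hc.card]; norm_num)
  let eB : Fin 4 ≃ B := (Finite.equivFinOfCardEq hB.card).symm
  let ec : Fin 4 ≃ c := (Finite.equivFinOfCardEq hc.card).symm
  set X : Fin 4 → IrrCharacter G := fun i => (eB i : IrrCharacter G) with hX
  set Y : Fin 4 → IrrCharacter H := fun i => (ec i : IrrCharacter H) with hY
  have hXB : ∀ i, X i ∈ B := fun i => (eB i).2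
  have hYc : ∀ i, Y i ∈ c := fun i => (ec i).2
  let I : IrrCharacter H → IrrCharacter G :=
    fun η => if h : η ∈ c then X (ec.symm ⟨η, h⟩) else X 0
  have hIY : ∀ i, I (Y i) = X i := by
    intro i
    simp only [I, dif_pos (hYc i)]
    congr 1
    exact ec.symm_apply_apply i
  have hcY : ∀ η ∈ c, ∃ i, Y i = η := by
    intro η hη
    exact ⟨ec.symm ⟨η, hη⟩, by simp [hY]⟩
  have hBX : ∀ χ ∈ B, ∃ i, X i = χ := by
    intro χ hχ
    exact ⟨eB.symm ⟨χ, hχ⟩, by simp [hX]⟩
  have hXinj : Function.Injective X := fun i j h => eB.injective (Subtype.ext h)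
  have hbij : Set.BijOn I c B := by
    refine ⟨?_, ?_, ?_⟩
    · intro η hη
      obtain ⟨i, rfl⟩ := hcY η hη
      rw [hIY]; exact hXB i
    · intro η hη η' hη' h
      obtain ⟨i, rfl⟩ := hcY η hη
      obtain ⟨j, rfl⟩ := hcY η' hη'
      rw [hIY, hIY] at h
      rw [hXinj h]
    · intro χ hχ
      obtain ⟨i, rfl⟩ := hBX χ hχ
      exact ⟨Y i, hYc i, hIY i⟩
  have key : ∀ ε : IrrCharacter H → ℤ, (∀ η ∈ c, ε η = 1 ∨ ε η = -1) →
      IsPerfectFun 2 M (muF X Y (fun i => ε (Y i))) → IsPerfectIsometry 2 M c B I ε := by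
    intro ε hε hperf
    refine ⟨hbij, hε, ?_⟩
    have : signedBijectionKernel c I ε = muF X Y (fun i => ε (Y i)) := by
      funext x y
      unfold signedBijectionKernel muF
      rw [finsum_mem_eq_sum_fin ec (fun η => (ε η : ℂ) * (I η : G → ℂ) x * (η : H → ℂ) y)]
      apply Finset.sum_congr rfl; intro i _
      show (ε (Y i) : ℂ) * (I (Y i) : G → ℂ) x * (Y i : H → ℂ) y = _
      rw [hIY]
    rw [this]; exact hperf
  rcases halt with ⟨h1B, h1c⟩ | ⟨⟨a0, h0, hu0⟩, ⟨a0', h0', hu0'⟩⟩
  · refine ⟨I, fun _ => 1, key _ (fun _ _ => Or.inl rfl) ?_⟩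
    apply isPerfectFun_muF hM hB hc hXB hYc
    · intro a a' ha ha'
      have hb := balanced_of_KR1 eB h1B ha
      have hb' := balanced_of_KR1 ec h1c ha'
      rw [Fin.sum_univ_four] at hb hb' ⊢
      simp only [one_mul]
      exact four_dvd_of_balanced (ha.1 _ (hXB 0)) (ha.1 _ (hXB 1)) (ha.1 _ (hXB 2))
        (ha.1 _ (hXB 3)) (ha'.1 _ (hYc 0)) (ha'.1 _ (hYc 1)) (ha'.1 _ (hYc 2)) (ha'.1 _ (hYc 3))
        hb hb'
    · intro a' ha' t ht
      have hb' := balanced_of_KR1 ec h1c ha'
      have h2 : ∀ i, (X i : G → ℂ) t = (X 0 : G → ℂ) t :=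
        fun i => h1B _ (hXB i) _ (hXB 0) t ht
      simp_rw [h2, ← Finset.sum_mul]
      have : (∑ i, ((1 : ℤ) : ℂ) * (a' (Y i) : ℂ)) = ((∑ i, a' (ec i) : ℤ) : ℂ) := by
        push_cast; simp [hY]
      rw [this, hb']; simp
    · intro a ha t ht
      have hb := balanced_of_KR1 eB h1B ha
      have h2 : ∀ i, (Y i : H → ℂ) t = (Y 0 : H → ℂ) t :=
        fun i => h1c _ (hYc i) _ (hYc 0) t ht
      simp_rw [h2, ← Finset.sum_mul]
      have : (∑ i, ((1 : ℤ) : ℂ) * (a (X i) : ℂ)) = ((∑ i, a (eB i) : ℤ) : ℂ) := by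
        push_cast; simp [hX]
      rw [this, hb]; simp
  · have hsq : ∀ i, a0 (X i) * a0 (X i) = 1 := by
      intro i; rcases h0.1 _ (hXB i) with h | h <;> rw [h] <;> norm_num
    have hsq' : ∀ i, a0' (Y i) * a0' (Y i) = 1 := by
      intro i; rcases h0'.1 _ (hYc i) with h | h <;> rw [h] <;> norm_num
    refine ⟨I, fun η => a0 (I η) * a0' η, key _ ?_ ?_⟩
    · intro η hη
      obtain ⟨i, rfl⟩ := hcY η hη
      rw [hIY]
      rcases h0.1 _ (hXB i) with h | h <;> rcases h0'.1 _ (hYc i) with h' | h' <;>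
        rw [h, h'] <;> norm_num
    · simp only [hIY]
      apply isPerfectFun_muF hM hB hc hXB hYc
      · intro a a' ha ha'
        have e1 : ∀ s s' : ℤ, (∀ i, a (X i) = s * a0 (X i)) → (∀ i, a' (Y i) = s' * a0' (Y i)) →
            ∑ i, a0 (X i) * a0' (Y i) * a (X i) * a' (Y i) = 4 * (s * s') := by
          intro s s' hs hs'
          have : ∀ i, a0 (X i) * a0' (Y i) * a (X i) * a' (Y i) = s * s' := by
            intro i
            rw [hs, hs']
            calc a0 (X i) * a0' (Y i) * (s * a0 (X i)) * (s' * a0' (Y i))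
                = (a0 (X i) * a0 (X i)) * (a0' (Y i) * a0' (Y i)) * (s * s') := by ring
              _ = s * s' := by rw [hsq, hsq']; ring
          simp_rw [this]
          simp
        rcases hu0 a ha with h | h <;> rcases hu0' a' ha' with h' | h'
        · exact ⟨_, e1 1 1 (fun i => by rw [h _ (hXB i)]; ring) (fun i => by rw [h' _ (hYc i)]; ring)⟩
        · exact ⟨_, e1 1 (-1) (fun i => by rw [h _ (hXB i)]; ring)
            (fun i => by rw [h' _ (hYc i)]; ring)⟩
        · exact ⟨_, e1 (-1) 1 (fun i => by rw [h _ (hXB i)]; ring)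
            (fun i => by rw [h' _ (hYc i)]; ring)⟩
        · exact ⟨_, e1 (-1) (-1) (fun i => by rw [h _ (hXB i)]; ring)
            (fun i => by rw [h' _ (hYc i)]; ring)⟩
      · intro a' ha' t ht
        have hs := srel_sum eB h0 ht
        have e1 : ∀ s' : ℤ, (∀ i, a' (Y i) = s' * a0' (Y i)) →
            ∑ i, ((a0 (X i) * a0' (Y i) : ℤ) : ℂ) * (a' (Y i) : ℂ) * (X i : G → ℂ) t = 0 := by
          intro s' hs'
          have : ∀ i, ((a0 (X i) * a0' (Y i) : ℤ) : ℂ) * (a' (Y i) : ℂ) * (X i : G → ℂ) t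
              = (s' : ℂ) * ((a0 (X i) : ℂ) * (X i : G → ℂ) t) := by
            intro i
            have h5 : ((a0' (Y i) : ℂ)) * (a0' (Y i) : ℂ) = 1 := by exact_mod_cast hsq' i
            rw [hs']
            push_cast
            calc (a0 (X i) : ℂ) * (a0' (Y i) : ℂ) * ((s' : ℂ) * (a0' (Y i) : ℂ)) * (X i : G → ℂ) t
                = ((a0' (Y i) : ℂ) * (a0' (Y i) : ℂ)) * ((s' : ℂ) * ((a0 (X i) : ℂ) *
                  (X i : G → ℂ) t)) := by ring
              _ = _ := by rw [h5, one_mul]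
          simp_rw [this]
          rw [← Finset.mul_sum]
          have hs2 : ∑ i, (a0 (X i) : ℂ) * (X i : G → ℂ) t = 0 := hs
          rw [hs2, mul_zero]
        rcases hu0' a' ha' with h' | h'
        · exact e1 1 (fun i => by rw [h' _ (hYc i)]; ring)
        · exact e1 (-1) (fun i => by rw [h' _ (hYc i)]; ring)
      · intro a ha t ht
        have hs := srel_sum ec h0' ht
        have e1 : ∀ s : ℤ, (∀ i, a (X i) = s * a0 (X i)) →
            ∑ i, ((a0 (X i) * a0' (Y i) : ℤ) : ℂ) * (a (X i) : ℂ) * (Y i : H → ℂ) t = 0 := by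
          intro s hs'
          have : ∀ i, ((a0 (X i) * a0' (Y i) : ℤ) : ℂ) * (a (X i) : ℂ) * (Y i : H → ℂ) t
              = (s : ℂ) * ((a0' (Y i) : ℂ) * (Y i : H → ℂ) t) := by
            intro i
            have h5 : ((a0 (X i) : ℂ)) * (a0 (X i) : ℂ) = 1 := by exact_mod_cast hsq i
            rw [hs']
            push_cast
            calc (a0 (X i) : ℂ) * (a0' (Y i) : ℂ) * ((s : ℂ) * (a0 (X i) : ℂ)) * (Y i : H → ℂ) t
                = ((a0 (X i) : ℂ) * (a0 (X i) : ℂ)) * ((s : ℂ) * ((a0' (Y i) : ℂ) *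
                  (Y i : H → ℂ) t)) := by ring
              _ = _ := by rw [h5, one_mul]
          simp_rw [this]
          rw [← Finset.mul_sum]
          have hs2 : ∑ i, (a0' (Y i) : ℂ) * (Y i : H → ℂ) t = 0 := hs
          rw [hs2, mul_zero]
        rcases hu0 a ha with h | h
        · exact e1 1 (fun i => by rw [h _ (hXB i)]; ring)
        · exact e1 (-1) (fun i => by rw [h _ (hXB i)]; ring)

end Cfsg.Agent.Lib.Helper20
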