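import Cfsg.Agent.Lib.Helper20.M11G3
import Cfsg.Agent.Lib.Helper20.M11G8

set_option autoImplicit false
set_option linter.unusedSectionVars false
set_option linter.unusedVariables false
set_option linter.style.haveILetI false

open Cfsg Cfsg.Agent.Lib.Helper20.M11 Cfsg.Agent.Lib.Helper82

namespace Cfsg.Agent.Lib.Helper20.M11

theorem centralizer_five {G : Type*} [Group G] [Finite G] (hG : Nat.card G = 7920)
    (Q : Sylow 5 G) (hQ : Nat.card Q = 5)
    (he : (Subgroup.centralizer ((Q : Subgroup G) : Set G)).relIndex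
      (Subgroup.normalizer ((Q : Subgroup G) : Set G)) = 4)
    (h11 : ∀ z y : G, orderOf z = 11 → Commute z y → ¬ 11 ∣ orderOf y → y = 1)
    (χ : IrrCharacter G) (hdeg : charDegree (χ : G → ℂ) = 16)
    (hval : ∀ x : G, x ∈ (Q : Subgroup G) → x ≠ 1 →
      (χ : G → ℂ) x = 1 ∨ (χ : G → ℂ) x = -1) :
    ∀ y : G, y ∈ Subgroup.centralizer ((Q : Subgroup G) : Set G) → ¬ 5 ∣ orderOf y → y = 1 := by
  haveI : Fact (Nat.Prime 5) := ⟨by norm_num⟩
  haveI : Fact (Nat.Prime 11) := ⟨by norm_num⟩
  obtain ⟨-, n, hn, hcard⟩ := sylow_arith 5 Q hQ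
  rw [he, hG] at hcard
  set c := Nat.card (Subgroup.centralizer ((Q : Subgroup G) : Set G)) with hc
  -- a generator of Q
  obtain ⟨q, hqQ, hq1⟩ : ∃ q : G, q ∈ (Q : Subgroup G) ∧ q ≠ 1 := by
    by_contra hcon
    push Not at hcon
    have : (Q : Subgroup G) = ⊥ := (Subgroup.eq_bot_iff_forall _).2 hcon
    have h2 : Nat.card (Q : Subgroup G) = 1 := by rw [this]; simp
    have h3 : Nat.card (Q : Subgroup G) = 5 := hQ
    omega
  have hzp : Subgroup.zpowers q = (Q : Subgroup G) := by
    have hle : Subgroup.zpowers q ≤ (Q : Subgroup G) := (Subgroup.zpowers_le).2 hqQ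
    apply Subgroup.eq_of_le_of_card_ge hle
    have h3 : Nat.card (Q : Subgroup G) = 5 := hQ
    rw [h3, Nat.card_zpowers]
    have h4 : orderOf q ∣ 5 := by
      rw [← h3]
      have := Subgroup.orderOf_dvd_natCard (Q : Subgroup G) hqQ
      exact this
    rcases (Nat.dvd_prime (by norm_num : Nat.Prime 5)).1 h4 with h5 | h5
    · exact absurd (orderOf_eq_one_iff.1 h5) hq1
    · omega
  have hcent : Subgroup.centralizer ({q} : Set G) =
      Subgroup.centralizer ((Q : Subgroup G) : Set G) := by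
    rw [← hzp, Subgroup.zpowers_eq_closure, Subgroup.centralizer_closure]
  have h16 := deg_dvd_index_centralizer χ q (hval q hqQ hq1)
  rw [hdeg, hcent] at h16
  have hidx := Subgroup.card_mul_index (Subgroup.centralizer ((Q : Subgroup G) : Set G))
  rw [hG, ← hc] at hidx
  obtain ⟨k, hk⟩ := h16
  rw [hk] at hidx
  -- 11 does not divide c
  have h11c : ¬ 11 ∣ c := by
    intro hdvd
    obtain ⟨z, hz⟩ := exists_prime_orderOf_dvd_card' (G := Subgroup.centralizer ((Q : Subgroup G) : Set G)) 11 hdvd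
    have hz' : orderOf (z : G) = 11 := by rw [Subgroup.orderOf_coe]; exact hz
    have hcomm : Commute (z : G) q := by
      have := (Subgroup.mem_centralizer_iff.1 z.2) q hqQ
      exact this.symm
    have hq5 : orderOf q = 5 := by
      rw [← Nat.card_zpowers, hzp]; exact hQ
    exact hq1 (h11 z q hz' hcomm (by rw [hq5]; norm_num))
  have h5c : 5 ∣ c := by
    have hle : (Q : Subgroup G) ≤ Subgroup.centralizer ((Q : Subgroup G) : Set G) := by
      rw [← hzp]
      intro x hx
      rw [Subgroup.mem_centralizer_iff]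
      intro y hy
      obtain ⟨a, rfl⟩ := Subgroup.mem_zpowers_iff.1 hx
      obtain ⟨b, rfl⟩ := Subgroup.mem_zpowers_iff.1 hy
      exact ((Commute.refl q).zpow_zpow b a).eq
    have := Subgroup.card_dvd_of_le hle
    rw [show Nat.card (Q : Subgroup G) = 5 from hQ] at this
    exact this
  have hc5 : c = 5 := by
    have h1 : c * k = 495 := by nlinarith
    have h2 : c ∣ 495 := ⟨k, h1.symm⟩
    have h3 : c ∈ Nat.divisors 495 := Nat.mem_divisors.2 ⟨h2, by norm_num⟩
    have h4 : Nat.divisors 495 = {1, 3, 5, 9, 11, 15, 33, 45, 55, 99, 165, 495} := by decide +kernel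
    rw [h4] at h3
    simp only [Finset.mem_insert, Finset.mem_singleton] at h3
    rcases h3 with h | h | h | h | h | h | h | h | h | h | h | h <;> rw [h] at hcard h11c h5c <;> omega
  intro y hy hy5
  have h1 : orderOf y ∣ c := by
    have := Subgroup.orderOf_dvd_natCard _ hy
    exact this
  rw [hc5] at h1
  rcases (Nat.dvd_prime (by norm_num : Nat.Prime 5)).1 h1 with h5 | h5
  · exact orderOf_eq_one_iff.1 h5
  · exact absurd (by rw [h5]) hy5

end Cfsg.Agent.Lib.Helper20.M11
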