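import Mathlib

set_option autoImplicit false

namespace Cfsg.Agent.Lib.Helper20.M11

theorem sq_ge_of_dvd {m c : ℤ} (hm : m ∣ c) (hc : c ≠ 0) : m ^ 2 ≤ c ^ 2 := by
  obtain ⟨t, rfl⟩ := hm
  have ht : t ≠ 0 := by
    rintro rfl
    simp at hc
  have h1 : 0 < t ^ 2 := by positivity
  have h2 : 1 ≤ t ^ 2 := by omega
  nlinarith [sq_nonneg m]

theorem bnd {c : ℤ} (s : ℤ) (hs : 0 ≤ s) (h : c ^ 2 < (s + 1) ^ 2) : -s ≤ c ∧ c ≤ s := by
  have h1 := abs_lt_of_sq_lt_sq h (by omega)
  rw [abs_lt] at h1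
  constructor <;> omega

/-- value of a character of degree `deg` of a perfect group at an involution. -/
def IV (deg : ℕ) (v : ℤ) : Prop := ∃ k : ℕ, 2 * k ≤ deg ∧ v = (deg : ℤ) - 4 * k

theorem num_inv (N h : ℤ) (hNh : N * h = 7920) (h0 : 0 < h) (hh : h ≤ 217)
    (a1 a2 a3 d b1 b2 f c g : ℤ)
    (va1 : IV 10 a1) (va2 : IV 10 a2) (va3 : IV 10 a3) (vd : IV 11 d) (vb1 : IV 16 b1)
    (vb2 : IV 16 b2) (vf : IV 44 f) (vc : IV 45 c) (vg : IV 55 g)
    (ca1 : (10 : ℤ) ∣ h * a1) (ca2 : (10 : ℤ) ∣ h * a2) (ca3 : (10 : ℤ) ∣ h * a3)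
    (cd : (11 : ℤ) ∣ h * d) (cb1 : (16 : ℤ) ∣ h * b1) (cb2 : (16 : ℤ) ∣ h * b2)
    (cf : (44 : ℤ) ∣ h * f) (cc : (45 : ℤ) ∣ h * c) (cg : (55 : ℤ) ∣ h * g)
    (hd : d ≠ 11)
    (S : 1 + a1 ^ 2 + a2 ^ 2 + a3 ^ 2 + d ^ 2 + b1 ^ 2 + b2 ^ 2 + f ^ 2 + c ^ 2 + g ^ 2 = N)
    (L : 1 + 10 * a1 + 10 * a2 + 10 * a3 + 11 * d + 16 * b1 + 16 * b2 + 44 * f + 45 * c + 55 * g
      = 0) : N = 48 := by
  obtain ⟨ka1, ha1, ea1⟩ := va1
  obtain ⟨ka2, ha2, ea2⟩ := va2
  obtain ⟨ka3, ha3, ea3⟩ := va3
  obtain ⟨kd, hkd, ed⟩ := vd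
  obtain ⟨kb1, hb1, eb1⟩ := vb1
  obtain ⟨kb2, hb2, eb2⟩ := vb2
  obtain ⟨kf, hkf, ef⟩ := vf
  obtain ⟨kc, hkc, ec⟩ := vc
  obtain ⟨kg, hkg, eg⟩ := vg
  push_cast at ea1 ea2 ea3 ed eb1 eb2 ef ec eg
  have h11 : (11 : ℤ) ∣ h := by
    have hp : Prime (11 : ℤ) := by
      rw [Int.prime_iff_natAbs_prime]; norm_num
    rcases hp.dvd_or_dvd cd with h1 | h1
    · exact h1
    · exfalso; clear * - h1 hkd ed hd; omega
  obtain ⟨k, rfl⟩ := h11
  have hNk : N * k = 720 := by nlinarith
  have hk1 : 1 ≤ k := by clear * - h0; omega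
  have hk19 : k ≤ 19 := by clear * - hh; omega
  have n1 := sq_nonneg a1
  have n2 := sq_nonneg a2
  have n3 := sq_nonneg a3
  have n4 := sq_nonneg d
  have n5 := sq_nonneg b1
  have n6 := sq_nonneg b2
  have n7 := sq_nonneg f
  have n8 := sq_nonneg c
  have n9 := sq_nonneg g
  have hc0 : c ≠ 0 := by clear * - ec; omega
  have hg0 : g ≠ 0 := by clear * - eg; omega
  have hd0 : d ≠ 0 := by clear * - ed; omega
  interval_cases k
  · -- k = 1
    exfalso
    have h1 : (45 : ℤ) ∣ c := by clear * - cc; omega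
    have h2 := sq_ge_of_dvd h1 hc0
    have hN : N = 720 := by clear * - hNk; omega
    linarith
  · exfalso
    have h1 : (45 : ℤ) ∣ c := by clear * - cc; omega
    have h2 := sq_ge_of_dvd h1 hc0
    have hN : N = 360 := by clear * - hNk; omega
    linarith
  · -- k = 3
    exfalso
    have h1 : (15 : ℤ) ∣ c := by clear * - cc; omega
    have h2 := sq_ge_of_dvd h1 hc0
    have h3 : (5 : ℤ) ∣ g := by clear * - cg; omega
    have h4 := sq_ge_of_dvd h3 hg0
    have hN : N = 240 := by clear * - hNk; omega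
    linarith
  · exfalso
    have h1 : (45 : ℤ) ∣ c := by clear * - cc; omega
    have h2 := sq_ge_of_dvd h1 hc0
    have hN : N = 180 := by clear * - hNk; omega
    linarith
  · -- k = 5, N = 144
    exfalso
    have hN : N = 144 := by clear * - hNk; omega
    have bc := bnd (c := c) 11 (by norm_num) (by norm_num; linarith)
    have hc : c = 9 := by clear * - bc cc ec; omega
    have bb1 := bnd (c := b1) 11 (by norm_num) (by norm_num; linarith)
    have bb2 := bnd (c := b2) 11 (by norm_num) (by norm_num; linarith)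
    have hb1' : b1 = 0 := by clear * - bb1 cb1; omega
    have hb2' : b2 = 0 := by clear * - bb2 cb2; omega
    subst hc hb1' hb2' hN
    have ba1 := bnd (c := a1) 7 (by norm_num) (by norm_num; linarith)
    have ba2 := bnd (c := a2) 7 (by norm_num) (by norm_num; linarith)
    have ba3 := bnd (c := a3) 7 (by norm_num) (by norm_num; linarith)
    have bd := bnd (c := d) 7 (by norm_num) (by norm_num; linarith)
    have bf := bnd (c := f) 7 (by norm_num) (by norm_num; linarith)
    have bg := bnd (c := g) 7 (by norm_num) (by norm_num; linarith)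
    have hall : d = -5 ∧ f = -4 ∧ g = -5 := by
      clear * - L ba1 ba2 ba3 bd bf bg ea1 ea2 ea3 ed ef eg
      omega
    obtain ⟨hd', hf', hg'⟩ := hall
    subst hd' hf' hg'
    linarith
  · exfalso
    have h1 : (15 : ℤ) ∣ c := by clear * - cc; omega
    have h2 := sq_ge_of_dvd h1 hc0
    have hN : N = 120 := by clear * - hNk; omega
    linarith
  · exfalso; clear * - hNk; omega
  · exfalso
    have h1 : (45 : ℤ) ∣ c := by clear * - cc; omega
    have h2 := sq_ge_of_dvd h1 hc0
    have hN : N = 90 := by clear * - hNk; omega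
    linarith
  · -- k = 9, N = 80
    exfalso
    have hN : N = 80 := by clear * - hNk; omega
    subst hN
    have bc := bnd (c := c) 8 (by norm_num) (by norm_num; linarith)
    have bg := bnd (c := g) 8 (by norm_num) (by norm_num; linarith)
    have ba1 := bnd (c := a1) 8 (by norm_num) (by norm_num; linarith)
    have ba2 := bnd (c := a2) 8 (by norm_num) (by norm_num; linarith)
    have ba3 := bnd (c := a3) 8 (by norm_num) (by norm_num; linarith)
    have bb1 := bnd (c := b1) 8 (by norm_num) (by norm_num; linarith)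
    have bb2 := bnd (c := b2) 8 (by norm_num) (by norm_num; linarith)
    have bd := bnd (c := d) 8 (by norm_num) (by norm_num; linarith)
    have bf := bnd (c := f) 8 (by norm_num) (by norm_num; linarith)
    have hc : c = 5 := by clear * - bc cc ec; omega
    have hg : g = -5 := by clear * - bg cg eg; omega
    have e1 : a1 = 0 := by clear * - ba1 ca1; omega
    have e2 : a2 = 0 := by clear * - ba2 ca2; omega
    have e3 : a3 = 0 := by clear * - ba3 ca3; omega
    have e4 : b1 = 0 := by clear * - bb1 cb1; omega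
    have e5 : b2 = 0 := by clear * - bb2 cb2; omega
    clear * - L hc hg e1 e2 e3 e4 e5
    omega
  · exfalso
    have h1 : (9 : ℤ) ∣ c := by clear * - cc; omega
    have h2 := sq_ge_of_dvd h1 hc0
    have hN : N = 72 := by clear * - hNk; omega
    linarith
  · exfalso; clear * - hNk; omega
  · exfalso
    have h1 : (15 : ℤ) ∣ c := by clear * - cc; omega
    have h2 := sq_ge_of_dvd h1 hc0
    have hN : N = 60 := by clear * - hNk; omega
    linarith
  · exfalso; clear * - hNk; omega
  · exfalso; clear * - hNk; omega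
  · clear * - hNk; omega
  · exfalso
    have h1 : (45 : ℤ) ∣ c := by clear * - cc; omega
    have h2 := sq_ge_of_dvd h1 hc0
    have hN : N = 45 := by clear * - hNk; omega
    linarith
  · exfalso; clear * - hNk; omega
  · exfalso
    have h1 : (5 : ℤ) ∣ c := by clear * - cc; omega
    have h2 := sq_ge_of_dvd h1 hc0
    have h3 : (5 : ℤ) ∣ g := by clear * - cg; omega
    have h4 := sq_ge_of_dvd h3 hg0
    have hN : N = 40 := by clear * - hNk; omega
    linarith
  · exfalso; clear * - hNk; omega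

end Cfsg.Agent.Lib.Helper20.M11
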