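import Cfsg.Agent.S4429
import Cfsg.Agent.Lib.Helper80.InvolVal
import Cfsg.Agent.Lib.Helper78.FrobSchur3
import Cfsg.Agent.Lib.Helper20.CharColumn
import Cfsg.Agent.Lib.Helper20.M11InvNum
import Cfsg.Agent.Lib.Helper25.BRA0999

set_option autoImplicit false
set_option linter.unusedSectionVars false
set_option linter.unusedVariables false
set_option linter.style.haveILetI false

open Cfsg Cfsg.Agent.Lib.Helper82 Cfsg.Agent.Lib.Helper81
open scoped ComplexConjugate

namespace Cfsg.Agent.Lib.Helper20.M11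

theorem exists_equiv_of_fiber_card {ι κ : Type*} [Finite ι] [Finite κ] (d : ι → ℕ) (D : κ → ℕ)
    (h : ∀ n, Nat.card {i // d i = n} = Nat.card {j // D j = n}) :
    ∃ e : κ ≃ ι, ∀ j, d (e j) = D j := by
  have h1 : ∀ n, Nonempty ({j // D j = n} ≃ {i // d i = n}) := fun n =>
    Finite.card_eq.1 (h n).symm
  let E := fun n => Classical.choice (h1 n)
  refine ⟨(Equiv.sigmaFiberEquiv D).symm.trans
    ((Equiv.sigmaCongrRight E).trans (Equiv.sigmaFiberEquiv d)), ?_⟩
  intro j
  exact (E (D j) ⟨j, rfl⟩).2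

/-- the degrees of a simple group of order 7920. -/
def D10 : Fin 10 → ℕ := ![1, 10, 10, 10, 11, 16, 16, 44, 45, 55]

theorem card_D10 (n : ℕ) : Nat.card {j : Fin 10 // D10 j = n} =
    (if n = 1 ∨ n = 11 ∨ n = 44 ∨ n = 45 ∨ n = 55 then 1 else if n = 10 then 3
      else if n = 16 then 2 else 0) := by
  rw [Nat.card_eq_fintype_card, Fintype.card_subtype]
  by_cases hn : n ≤ 55
  · interval_cases n <;> decide
  · have h1 : (Finset.univ.filter fun j : Fin 10 => D10 j = n) = ∅ := by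
      rw [Finset.filter_eq_empty_iff]
      intro j _ hj
      have h2 : ∀ j : Fin 10, D10 j ≤ 55 := by decide
      have h3 := h2 j
      omega
    rw [h1, Finset.card_empty]
    have e1 : ¬ (n = 1 ∨ n = 11 ∨ n = 44 ∨ n = 45 ∨ n = 55) := by omega
    have e2 : ¬ n = 10 := by omega
    have e3 : ¬ n = 16 := by omega
    rw [if_neg e1, if_neg e2, if_neg e3]

theorem sum_fin10 (F : Fin 10 → ℤ) :
    ∑ j, F j = F 0 + F 1 + F 2 + F 3 + F 4 + F 5 + F 6 + F 7 + F 8 + F 9 := by
  simp only [Fin.sum_univ_succ, Fin.sum_univ_zero]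
  show F 0 + (F 1 + (F 2 + (F 3 + (F 4 + (F 5 + (F 6 + (F 7 + (F 8 + (F 9 + 0))))))))) = _
  ring

theorem deg_dvd_index_mul {G : Type*} [Group G] [Finite G] (χ : IrrCharacter G) (g : G) (v : ℤ)
    (h : (χ : G → ℂ) g = v) :
    (charDegree (χ : G → ℂ) : ℤ) ∣ ((Subgroup.centralizer ({g} : Set G)).index : ℤ) * v := by
  classical
  haveI := Fintype.ofFinite G
  have hint := centralChar_isIntegral χ g
  unfold centralChar at hint
  rw [isChar_one_eq (isIrr_isChar χ.2), h] at hint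
  set k := (Subgroup.centralizer ({g} : Set G)).index with hk
  set n := charDegree (χ : G → ℂ) with hn
  have hn0 : n ≠ 0 := (isIrr_charDegree_pos χ.2).ne'
  have hq : IsIntegral ℤ ((k : ℚ) * (v : ℚ) / (n : ℚ)) := by
    have h1 : ((k : ℂ) * (v : ℂ) / (n : ℂ)) = algebraMap ℚ ℂ ((k : ℚ) * (v : ℚ) / (n : ℚ)) := by
      simp
    rw [h1] at hint
    exact (isIntegral_algebraMap_iff (algebraMap ℚ ℂ).injective).1 hint
  obtain ⟨z, hz⟩ := IsIntegrallyClosed.isIntegral_iff.1 hq
  have hz' : (z : ℚ) = (k : ℚ) * (v : ℚ) / (n : ℚ) := by simpa using hz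
  have hn0' : (n : ℚ) ≠ 0 := Nat.cast_ne_zero.2 hn0
  have h2 : (z : ℚ) * n = k * v := by rw [hz']; field_simp
  have h3 : z * (n : ℤ) = (k : ℤ) * v := by exact_mod_cast h2
  exact ⟨z, by rw [← h3]; ring⟩

theorem inv_centralizer {G : Type*} [Group G] [Finite G] (hG : Cfsg.IsM11 G) (x : G)
    (hx : orderOf x = 2) : Nat.card (Subgroup.centralizer ({x} : Set G)) = 48 := by
  classical
  obtain ⟨hs, hcard⟩ := hG
  haveI := hs
  haveI := Fintype.ofFinite G
  haveI : Finite (IrrCharacter G) := Cfsg.Agent.Lib.Helper20.finite_irrCharacter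
  haveI := Fintype.ofFinite (IrrCharacter G)
  have hnc : ¬ IsCyclic G := by
    intro hc
    letI : CommGroup G := IsCyclic.commGroup
    have h1 := IsSimpleGroup.prime_card (α := G)
    rw [hcard] at h1
    norm_num at h1
  have hperf : commutator G = ⊤ := Cfsg.Agent.Lib.Helper25.BR.perfect_of_simple hnc
  have hx2 : x ^ 2 = 1 := by rw [← hx]; exact pow_orderOf_eq_one x
  have hx1 : x ≠ 1 := by
    rintro rfl
    rw [orderOf_one] at hx
    omega
  obtain ⟨-, hdeg⟩ := Cfsg.Agent.S4429.result hcard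
  obtain ⟨e, he⟩ := exists_equiv_of_fiber_card (fun χ : IrrCharacter G => charDegree (χ : G → ℂ))
    D10 (fun n => by rw [hdeg n, card_D10 n])
  -- values at the involution
  have hval : ∀ χ : IrrCharacter G, ∃ v : ℤ, (χ : G → ℂ) x = v ∧ IV (charDegree (χ : G → ℂ)) v := by
    intro χ
    obtain ⟨k, hk1, hk2⟩ := Cfsg.Agent.Lib.Helper80.invol_value hperf (isIrr_isChar χ.2) x hx2
    exact ⟨(charDegree (χ : G → ℂ) : ℤ) - 4 * k, by rw [hk2]; push_cast; ring, k, hk1, rfl⟩
  choose v hv1 hv2 using hval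
  set N := Nat.card (Subgroup.centralizer ({x} : Set G)) with hN
  set h := (Subgroup.centralizer ({x} : Set G)).index with hh
  have hNh : N * h = 7920 := by
    rw [← hcard]
    exact Subgroup.card_mul_index _
  -- orthogonality
  have hS : ∑ χ : IrrCharacter G, (v χ) ^ 2 = (N : ℤ) := by
    have h1 := Cfsg.Agent.Lib.Helper20.sum_irr_mul_conj x x
    rw [if_pos (IsConj.refl x)] at h1
    have h2 : ∀ χ : IrrCharacter G, (χ : G → ℂ) x * conj ((χ : G → ℂ) x) = (((v χ) ^ 2 : ℤ) : ℂ) := by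
      intro χ
      rw [hv1 χ]
      simp [sq]
    simp only [h2] at h1
    exact_mod_cast h1
  have hL : ∑ χ : IrrCharacter G, (charDegree (χ : G → ℂ) : ℤ) * v χ = 0 := by
    have h1 := Cfsg.Agent.Lib.Helper20.sum_irr_mul_conj x 1
    rw [if_neg (by
      intro hc
      exact hx1 (isConj_one_left.1 hc))] at h1
    have h2 : ∀ χ : IrrCharacter G, (χ : G → ℂ) x * conj ((χ : G → ℂ) 1) =
        (((charDegree (χ : G → ℂ) : ℤ) * v χ : ℤ) : ℂ) := by
      intro χ
      rw [hv1 χ, isChar_one_eq (isIrr_isChar χ.2)]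
      simp [mul_comm]
    simp only [h2] at h1
    exact_mod_cast h1
  have hC : ∀ χ : IrrCharacter G, (charDegree (χ : G → ℂ) : ℤ) ∣ (h : ℤ) * v χ := fun χ =>
    deg_dvd_index_mul χ x (v χ) (hv1 χ)
  -- Frobenius-Schur bound
  have hF : h ≤ 217 := by
    have h1 := Cfsg.Agent.Lib.Helper78.fs_count_int (G := G)
    have h2 : ∑ χ : IrrCharacter G, Cfsg.Agent.Lib.Helper78.fsNuZ (χ : G → ℂ) *
        (Cfsg.charDegree (χ : G → ℂ) : ℤ) ≤ ∑ χ : IrrCharacter G, (charDegree (χ : G → ℂ) : ℤ) := by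
      apply Finset.sum_le_sum
      intro χ _
      have h0 : (0 : ℤ) ≤ (Cfsg.charDegree (χ : G → ℂ) : ℤ) := Int.natCast_nonneg _
      rcases Cfsg.Agent.Lib.Helper78.fsNuZ_cases (χ : G → ℂ) with h4 | h4 | h4 <;> rw [h4] <;>
        linarith
    have h3 : ∑ χ : IrrCharacter G, (charDegree (χ : G → ℂ) : ℤ) = 218 := by
      rw [← e.sum_comp]
      simp only [he]
      decide
    have h4 : h ≤ Nat.card {y : G // orderOf y = 2} := by
      rw [hh, ← Cfsg.Agent.Lib.Helper20.card_isConj_eq_index]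
      apply Nat.card_le_card_of_injective (fun y => (⟨y.1, by
        obtain ⟨c, hc⟩ := isConj_iff.1 y.2
        rw [← hc]
        have := orderOf_injective (MulAut.conj c).toMonoidHom (MulAut.conj c).injective x
        simpa [hx] using this⟩ : {y : G // orderOf y = 2}))
      intro a b hab
      apply Subtype.ext
      exact congrArg (fun z : {y : G // orderOf y = 2} => z.1) hab
    have h5 : (h : ℤ) ≤ Nat.card {y : G // orderOf y = 2} := by exact_mod_cast h4
    have h6 : (h : ℤ) ≤ 217 := by linarith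
    exact_mod_cast h6
  -- transport to `Fin 10`
  rw [← e.sum_comp] at hS hL
  simp only [he] at hL
  have hv2' : ∀ j, IV (D10 j) (v (e j)) := fun j => by rw [← he j]; exact hv2 (e j)
  have hC' : ∀ j, (D10 j : ℤ) ∣ (h : ℤ) * v (e j) := fun j => by rw [← he j]; exact hC (e j)
  have h0 : v (e 0) = 1 := by
    obtain ⟨k, hk1, hk2⟩ := hv2' 0
    have : D10 0 = 1 := rfl
    rw [this] at hk1 hk2
    push_cast at hk2
    omega
  have hd : v (e 4) ≠ 11 := by
    intro h11
    apply hx1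
    apply eq_one_of_norm_eq (e 4) (by rw [he 4]; decide) x
    rw [hv1 (e 4), h11, he 4]
    simp [D10]
  have hfin : (N : ℤ) = 48 := by
    apply num_inv (N : ℤ) (h : ℤ) (by exact_mod_cast hNh)
      (by
        have : h ≠ 0 := by
          intro h0
          rw [h0] at hNh
          omega
        omega) (by exact_mod_cast hF)
      (v (e 1)) (v (e 2)) (v (e 3)) (v (e 4)) (v (e 5)) (v (e 6)) (v (e 7)) (v (e 8)) (v (e 9))
      (hv2' 1) (hv2' 2) (hv2' 3) (hv2' 4) (hv2' 5) (hv2' 6) (hv2' 7) (hv2' 8) (hv2' 9)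
      (hC' 1) (hC' 2) (hC' 3) (hC' 4) (hC' 5) (hC' 6) (hC' 7) (hC' 8) (hC' 9) hd
    · rw [← hS, sum_fin10, h0]
      ring
    · rw [← hL, sum_fin10, h0]
      simp [D10]
  exact_mod_cast hfin

end Cfsg.Agent.Lib.Helper20.M11
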