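import Cfsg.Agent.Lib.Helper20.M11Inv

/-!
# Elements of order 3 in a simple group of order 7920 (definitions for the ladder "M3", S0434)
-/

set_option autoImplicit false

namespace Cfsg.Agent.Lib.Helper20.M3

/-- the norm of `a + b ω + c ω²` (`ω` a primitive cube root of unity). -/
def nf (a b c : ℕ) : ℤ :=
  (a : ℤ) ^ 2 + (b : ℤ) ^ 2 + (c : ℤ) ^ 2 - (a : ℤ) * b - (a : ℤ) * c - (b : ℤ) * c

end Cfsg.Agent.Lib.Helper20.M3
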