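import Cfsg.Agent.Lib.Helper20.M3Defs
import Cfsg.Agent.Lib.Helper79.Eigen

set_option autoImplicit false
set_option linter.unusedVariables false

open Cfsg Cfsg.Agent.Lib.Helper82 Cfsg.Agent.Lib.Helper81 Cfsg.Agent.Lib.Helper20.M11

namespace Cfsg.Agent.Lib.Helper20.M3

theorem omega_facts {ω : ℂ} (hω : ω ^ 2 + ω + 1 = 0) :
    ω ^ 3 = 1 ∧ ω ≠ 1 ∧ ω ^ 2 ≠ 1 ∧ ω ^ 2 ≠ ω := by
  refine ⟨by linear_combination (ω - 1) * hω, ?_, ?_, ?_⟩
  · rintro rfl; norm_num at hω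
  · intro h
    rw [h] at hω
    have h2 : ω = -2 := by linear_combination hω
    rw [h2] at h; norm_num at h
  · intro h
    rw [h] at hω
    have h2 : ω = -1 / 2 := by linear_combination hω / 2
    rw [h2] at h; norm_num at h

theorem exists_mult {G : Type*} [Group G] [Finite G] (χ : G → ℂ) (hχ : IsCharacter G χ) (y : G)
    (hy : y ^ 3 = 1) (ω : ℂ) (hω : ω ^ 2 + ω + 1 = 0) :
    ∃ a b c : ℕ, a + b + c = charDegree χ ∧ χ y = a + b * ω + c * ω ^ 2 ∧
      χ (y ^ 2) = a + b * ω ^ 2 + c * ω := by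
  classical
  obtain ⟨s, m, h1, h2, h3⟩ :=
    Cfsg.Agent.Lib.Helper79.IsCharacter.exists_weights χ hχ y 3 (by norm_num) hy
  obtain ⟨hω3, hω1, hω2, hω12⟩ := omega_facts hω
  have hsub : s ⊆ ({1, ω, ω ^ 2} : Finset ℂ) := by
    intro μ hμ
    have h := h1 μ hμ
    have hf : (μ - 1) * ((μ - ω) * (μ - ω ^ 2)) = 0 := by
      linear_combination h + (-μ ^ 2 + ω * μ - (ω - 1)) * hω
    simp only [Finset.mem_insert, Finset.mem_singleton]
    rcases mul_eq_zero.1 hf with h | h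
    · left; exact sub_eq_zero.1 h
    · rcases mul_eq_zero.1 h with h | h
      · right; left; exact sub_eq_zero.1 h
      · right; right; exact sub_eq_zero.1 h
  set m' : ℂ → ℕ := fun μ => if μ ∈ s then m μ else 0 with hm'
  have hsum : ∀ k : ℕ, χ (y ^ k) =
      (m' 1 : ℂ) * 1 ^ k + (m' ω : ℂ) * ω ^ k + (m' (ω ^ 2) : ℂ) * (ω ^ 2) ^ k := by
    intro k
    rw [h3 k]
    have h : ∑ μ ∈ s, (m μ : ℂ) * μ ^ k =
        ∑ μ ∈ ({1, ω, ω ^ 2} : Finset ℂ), (m' μ : ℂ) * μ ^ k := by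
      rw [← Finset.sum_subset hsub]
      · apply Finset.sum_congr rfl
        intro μ hμ
        simp [hm', hμ]
      · intro μ _ hμ
        simp [hm', hμ]
    rw [h, Finset.sum_insert, Finset.sum_insert, Finset.sum_singleton]
    · ring
    · simp only [Finset.mem_singleton]
      exact fun h => hω12 h.symm
    · simp only [Finset.mem_insert, Finset.mem_singleton, not_or]
      exact ⟨fun h => hω1 h.symm, fun h => hω2 h.symm⟩
  refine ⟨m' 1, m' ω, m' (ω ^ 2), ?_, ?_, ?_⟩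
  · have h0 := hsum 0
    rw [pow_zero, isChar_one_eq hχ] at h0
    simp only [pow_zero, mul_one] at h0
    exact_mod_cast h0.symm
  · have h0 := hsum 1
    rw [pow_one] at h0
    rw [h0]; ring
  · rw [hsum 2]
    linear_combination (m' (ω ^ 2) : ℂ) * ω * hω3

end Cfsg.Agent.Lib.Helper20.M3
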