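import Cfsg.Agent.Lib.Helper20.CharColumn

set_option autoImplicit false
set_option linter.unusedVariables false
set_option linter.style.haveILetI false

namespace Cfsg.Agent.Lib.Helper20.M3

theorem card_sylow3 {G : Type*} [Group G] [Finite G] (hG : Nat.card G = 7920) (P : Sylow 3 G) :
    Nat.card (P : Subgroup G) = 9 := by
  haveI : Fact (Nat.Prime 3) := ⟨by norm_num⟩
  rw [Sylow.card_eq_multiplicity, hG]
  have : (7920 : ℕ).factorization 3 = 2 := by
    have h7920 : (7920 : ℕ) = 3 ^ 2 * 880 := by norm_num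
    rw [h7920, Nat.factorization_mul (by norm_num) (by norm_num), Finsupp.add_apply,
      Nat.factorization_pow, Finsupp.smul_apply,
      Nat.Prime.factorization_self (by norm_num),
      Nat.factorization_eq_zero_of_not_dvd (by norm_num)]
    norm_num
  rw [this]; norm_num

theorem sylow3_comm {G : Type*} [Group G] [Finite G] (hG : Nat.card G = 7920) (P : Sylow 3 G)
    {a b : G} (ha : a ∈ (P : Subgroup G)) (hb : b ∈ (P : Subgroup G)) : a * b = b * a := by
  haveI : Fact (Nat.Prime 3) := ⟨by norm_num⟩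
  have h := IsPGroup.commutative_of_card_eq_prime_sq (p := 3) (G := (P : Subgroup G))
    (by rw [card_sylow3 hG P]; norm_num)
  have := h ⟨a, ha⟩ ⟨b, hb⟩
  exact congrArg Subtype.val this

theorem sylow3_le_centralizer {G : Type*} [Group G] [Finite G] (hG : Nat.card G = 7920)
    (P : Sylow 3 G) {y : G} (hy : y ∈ (P : Subgroup G)) :
    (P : Subgroup G) ≤ Subgroup.centralizer ({y} : Set G) := by
  intro a ha
  rw [Subgroup.mem_centralizer_singleton_iff]
  exact sylow3_comm hG P ha hy

theorem exists_sylow3_mem {G : Type*} [Group G] [Finite G] (y : G) (hy : orderOf y = 3) :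
    ∃ P : Sylow 3 G, y ∈ (P : Subgroup G) := by
  haveI : Fact (Nat.Prime 3) := ⟨by norm_num⟩
  have h : IsPGroup 3 (Subgroup.zpowers y) := by
    apply IsPGroup.of_card (n := 1)
    rw [Nat.card_zpowers, hy, pow_one]
  obtain ⟨P, hP⟩ := h.exists_le_sylow
  exact ⟨P, hP (Subgroup.mem_zpowers y)⟩

theorem card_centralizer_cases {G : Type*} [Group G] [Finite G] (hG : Nat.card G = 7920)
    (h11 : ∀ z y : G, orderOf z = 11 → Commute z y → ¬ 11 ∣ orderOf y → y = 1)
    (h5 : ∀ z y : G, orderOf z = 5 → Commute z y → ¬ 5 ∣ orderOf y → y = 1)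
    (y : G) (hy : orderOf y = 3) :
    Nat.card (Subgroup.centralizer ({y} : Set G)) = 9 ∨
    Nat.card (Subgroup.centralizer ({y} : Set G)) = 18 ∨
    Nat.card (Subgroup.centralizer ({y} : Set G)) = 36 ∨
    Nat.card (Subgroup.centralizer ({y} : Set G)) = 72 ∨
    Nat.card (Subgroup.centralizer ({y} : Set G)) = 144 := by
  classical
  have hy1 : y ≠ 1 := by rintro rfl; simp at hy
  obtain ⟨P, hP⟩ := exists_sylow3_mem y hy
  have h9 : 9 ∣ Nat.card (Subgroup.centralizer ({y} : Set G)) := by
    rw [← card_sylow3 hG P]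
    exact Subgroup.card_dvd_of_le (sylow3_le_centralizer hG P hP)
  have hd : Nat.card (Subgroup.centralizer ({y} : Set G)) ∣ 7920 := by
    rw [← hG]; exact Subgroup.card_subgroup_dvd_card _
  have hp : ∀ p : ℕ, p.Prime → (∀ z y : G, orderOf z = p → Commute z y → ¬ p ∣ orderOf y → y = 1) →
      ¬ p ∣ 3 → ¬ p ∣ Nat.card (Subgroup.centralizer ({y} : Set G)) := by
    intro p hp h hp3 hdvd
    haveI : Fact p.Prime := ⟨hp⟩
    obtain ⟨z, hz⟩ := exists_prime_orderOf_dvd_card' p hdvd
    have hz2 : orderOf (z : G) = p := by rw [Subgroup.orderOf_coe, hz]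
    have hc : Commute (z : G) y := by
      have := z.2
      rw [Subgroup.mem_centralizer_singleton_iff] at this
      exact this
    exact hy1 (h z y hz2 hc (by rw [hy]; exact hp3))
  have n5 := hp 5 (by norm_num) h5 (by norm_num)
  have n11 := hp 11 (by norm_num) h11 (by norm_num)
  generalize Nat.card (Subgroup.centralizer ({y} : Set G)) = n at *
  have c5 : Nat.Coprime n 5 := ((Nat.Prime.coprime_iff_not_dvd (by norm_num)).2 n5).symm
  have c11 : Nat.Coprime n 11 := ((Nat.Prime.coprime_iff_not_dvd (by norm_num)).2 n11).symm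
  have c55 : Nat.Coprime n (5 * 11) := Nat.Coprime.mul_right c5 c11
  have h144 : n ∣ 144 := by
    apply Nat.Coprime.dvd_of_dvd_mul_right c55
    norm_num
    exact hd
  obtain ⟨m, rfl⟩ := h9
  have hm : m ∣ 16 := by
    have : 9 * m ∣ 9 * 16 := by norm_num; exact h144
    exact Nat.dvd_of_mul_dvd_mul_left (by norm_num) this
  have hm16 : m ≤ 16 := Nat.le_of_dvd (by norm_num) hm
  clear * - hm hm16
  interval_cases m <;> omega

theorem sylow_unique_of_mem {G : Type*} [Group G] [Finite G] (hG : Nat.card G = 7920)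
    (h3 : ∀ y : G, orderOf y = 3 → Nat.card (Subgroup.centralizer ({y} : Set G)) = 18)
    (P Q : Sylow 3 G) (y : G) (hy : orderOf y = 3) (hP : y ∈ (P : Subgroup G))
    (hQ : y ∈ (Q : Subgroup G)) : P = Q := by
  classical
  set C := Subgroup.centralizer ({y} : Set G) with hC
  have hPC : (P : Subgroup G) ≤ C := sylow3_le_centralizer hG P hP
  have hQC : (Q : Subgroup G) ≤ C := sylow3_le_centralizer hG Q hQ
  have hidx : ((P : Subgroup G).subgroupOf C).index = 2 := by
    have h1 := Subgroup.card_mul_index ((P : Subgroup G).subgroupOf C)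
    have hcC : Nat.card C = 18 := h3 y hy
    rw [Nat.card_congr (Subgroup.subgroupOfEquivOfLe hPC).toEquiv, card_sylow3 hG P, hcC] at h1
    omega
  have hQP : (Q : Subgroup G) ≤ (P : Subgroup G) := by
    intro z hz
    have hz9 : z ^ 9 = 1 := by
      have := pow_card_eq_one' (G := (Q : Subgroup G)) (x := ⟨z, hz⟩)
      rw [card_sylow3 hG Q] at this
      exact congrArg Subtype.val this
    have h2 := Subgroup.mul_self_mem_of_index_two hidx ⟨z, hQC hz⟩
    rw [Subgroup.mem_subgroupOf] at h2
    have h4 : z * z ∈ (P : Subgroup G) := h2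
    have h5 : z = (z * z) ^ 5 := by
      rw [← pow_two, ← pow_mul]
      norm_num
      rw [pow_succ, hz9, one_mul]
    rw [h5]
    exact Subgroup.pow_mem _ h4 5
  have : (Q : Subgroup G) = (P : Subgroup G) := by
    apply Subgroup.eq_of_le_of_card_ge hQP
    rw [card_sylow3 hG P, card_sylow3 hG Q]
  exact (Sylow.ext this).symm

theorem exp_three {G : Type*} [Group G] [Finite G] (hG : Nat.card G = 7920)
    (h2 : ∀ x : G, orderOf x = 2 → Nat.card (Subgroup.centralizer ({x} : Set G)) = 48)
    (h3 : ∀ y : G, orderOf y = 3 → Nat.card (Subgroup.centralizer ({y} : Set G)) = 18)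
    (huniq : ∀ (P Q : Sylow 3 G) (y : G), orderOf y = 3 → y ∈ (P : Subgroup G) →
      y ∈ (Q : Subgroup G) → P = Q)
    (P : Sylow 3 G) (w : G) (hw : w ∈ (P : Subgroup G)) (hw1 : w ≠ 1) : orderOf w = 3 := by
  classical
  haveI : Fact (Nat.Prime 2) := ⟨by norm_num⟩
  have hP9 : ∀ z : G, z ∈ (P : Subgroup G) → orderOf z ∣ 9 := by
    intro z hz
    have := orderOf_dvd_natCard (⟨z, hz⟩ : (P : Subgroup G))
    rwa [Subgroup.orderOf_mk, card_sylow3 hG P] at this
  have hdvd := hP9 w hw
  have hle : orderOf w ≤ 9 := Nat.le_of_dvd (by norm_num) hdvd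
  have hne1 : orderOf w ≠ 1 := by rwa [Ne, orderOf_eq_one_iff]
  by_contra hne3
  have h9 : orderOf w = 9 := by
    generalize orderOf w = n at *
    interval_cases n <;> omega
  set y := w ^ 3 with hy
  have hyo : orderOf y = 3 := by
    rw [hy, orderOf_pow' w (by norm_num), h9]
    norm_num
  have hyP : y ∈ (P : Subgroup G) := Subgroup.pow_mem _ hw 3
  have h18 := h3 y hyo
  obtain ⟨x, hx⟩ := exists_prime_orderOf_dvd_card' (G := Subgroup.centralizer ({y} : Set G)) 2
    (by rw [h18]; norm_num)
  obtain ⟨X, hXmem⟩ := x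
  have hx2 : orderOf X = 2 := by rw [← hx, Subgroup.orderOf_mk]
  have hxy : X * y = y * X := Subgroup.mem_centralizer_singleton_iff.1 hXmem
  have hconj : X • P = P := huniq (X • P) P y hyo (by
    have := Subgroup.smul_mem_pointwise_smul y (MulAut.conj X) (P : Subgroup G) hyP
    rw [MulAut.smul_def, MulAut.conj_apply, hxy, mul_inv_cancel_right] at this
    rw [Sylow.coe_subgroup_smul]
    exact this) hyP
  have hw' : X * w * X⁻¹ ∈ (P : Subgroup G) := by
    have := Subgroup.smul_mem_pointwise_smul w (MulAut.conj X) (P : Subgroup G) hw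
    rw [← Sylow.coe_subgroup_smul, hconj, MulAut.smul_def, MulAut.conj_apply] at this
    exact this
  set u := w * (X * w * X⁻¹) with hu
  have huP : u ∈ (P : Subgroup G) := mul_mem hw hw'
  have hX2 : X * X = 1 := by rw [← pow_two, ← hx2]; exact pow_orderOf_eq_one X
  have hXinv : X⁻¹ = X := inv_eq_of_mul_eq_one_left hX2
  have h1 : w * (X * w * X⁻¹) = (X * w * X⁻¹) * w := sylow3_comm hG P hw hw'
  have hcomm : u * X = X * u := by
    calc u * X = w * X * w := by simp [hu, mul_assoc]
      _ = X * ((X * w * X⁻¹) * w) := by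
        rw [hXinv]; simp only [← mul_assoc]; rw [hX2, one_mul]
      _ = X * u := by rw [← h1]
  have huC : u ∈ Subgroup.centralizer ({X} : Set G) := Subgroup.mem_centralizer_singleton_iff.2 hcomm
  have ho48 : orderOf u ∣ 48 := by
    rw [← h2 X hx2]
    have := orderOf_dvd_natCard (⟨u, huC⟩ : Subgroup.centralizer ({X} : Set G))
    rwa [Subgroup.orderOf_mk] at this
  have ho9 := hP9 u huP
  have ho3 : orderOf u ∣ 3 := by
    have := Nat.dvd_gcd ho48 ho9
    norm_num at this
    exact this
  have hu3 : u ^ 3 = 1 := orderOf_dvd_iff_pow_eq_one.1 ho3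
  have hu3' : u ^ 3 = y ^ 2 := by
    have hc : Commute w (X * w * X⁻¹) := h1
    rw [hu, hc.mul_pow, conj_pow, ← hy, hxy, mul_inv_cancel_right, pow_two]
  rw [hu3] at hu3'
  have := orderOf_dvd_of_pow_eq_one hu3'.symm
  rw [hyo] at this
  norm_num at this

theorem card_eq_mul_of_fibers' {α β : Type*} [Finite α] [Finite β] (f : α → β) (p : ℕ)
    (h : ∀ b : β, Nat.card {a : α // f a = b} = p) : Nat.card α = p * Nat.card β := by
  classical
  haveI := Fintype.ofFinite β
  rw [← Nat.card_congr (Equiv.sigmaFiberEquiv f), Nat.card_sigma]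
  simp only [h, Finset.sum_const, Finset.card_univ, smul_eq_mul, Nat.card_eq_fintype_card]
  ring

theorem card_normalizer {G : Type*} [Group G] [Finite G] (hG : Nat.card G = 7920)
    (h3 : ∀ y : G, orderOf y = 3 → Nat.card (Subgroup.centralizer ({y} : Set G)) = 18)
    (hc : ∀ y y' : G, orderOf y = 3 → orderOf y' = 3 → IsConj y y')
    (huniq : ∀ (P Q : Sylow 3 G) (y : G), orderOf y = 3 → y ∈ (P : Subgroup G) →
      y ∈ (Q : Subgroup G) → P = Q)
    (hexp : ∀ (P : Sylow 3 G) (w : G), w ∈ (P : Subgroup G) → w ≠ 1 → orderOf w = 3)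
    (P : Sylow 3 G) :
    Nat.card (Subgroup.normalizer ((P : Subgroup G) : Set G)) = 144 := by
  classical
  haveI : Fact (Nat.Prime 3) := ⟨by norm_num⟩
  obtain ⟨y₀, hy₀⟩ := exists_prime_orderOf_dvd_card' (G := G) 3 (by rw [hG]; norm_num)
  have hY : Nat.card {y : G // orderOf y = 3} = 440 := by
    have e : {x // IsConj y₀ x} ≃ {y : G // orderOf y = 3} :=
      Equiv.subtypeEquivRight (fun x => ⟨fun h => by
        obtain ⟨c, hc⟩ := isConj_iff.1 h
        have h5 := MulEquiv.orderOf_eq (MulAut.conj c) y₀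
        rw [MulAut.conj_apply] at h5
        rw [← hc, h5]
        exact hy₀, fun h => hc y₀ x hy₀ h⟩)
    rw [← Nat.card_congr e, Cfsg.Agent.Lib.Helper20.card_isConj_eq_index]
    have := Subgroup.card_mul_index (Subgroup.centralizer ({y₀} : Set G))
    rw [h3 y₀ hy₀, hG] at this
    omega
  have hex := fun y : {y : G // orderOf y = 3} => exists_sylow3_mem y.1 y.2
  choose f hf using hex
  have hfib : ∀ Q : Sylow 3 G, Nat.card {y : {y : G // orderOf y = 3} // f y = Q} = 8 := by
    intro Q
    have e : {y : {y : G // orderOf y = 3} // f y = Q} ≃ {w : (Q : Subgroup G) // w ≠ 1} :=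
      { toFun := fun y => ⟨⟨y.1.1, by
          have h6 := hf y.1
          rw [y.2] at h6
          exact h6⟩, by
          intro h
          have h1 : y.1.1 = 1 := congrArg Subtype.val h
          have h2 := y.1.2
          rw [h1, orderOf_one] at h2
          omega⟩
        invFun := fun w => ⟨⟨w.1.1, hexp Q w.1.1 w.1.2 (fun h => w.2 (Subtype.ext h))⟩,
          huniq _ _ w.1.1 (hexp Q w.1.1 w.1.2 (fun h => w.2 (Subtype.ext h))) (hf _) w.1.2⟩
        left_inv := fun y => rfl
        right_inv := fun w => rfl }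
    rw [Nat.card_congr e]
    have h1 : Nat.card {w : (Q : Subgroup G) // w ≠ 1} = Nat.card (Q : Subgroup G) - 1 := by
      haveI := Fintype.ofFinite (Q : Subgroup G)
      rw [Nat.card_eq_fintype_card, Nat.card_eq_fintype_card, Fintype.card_subtype_compl,
        Fintype.card_subtype_eq]
    rw [h1, card_sylow3 hG Q]
  have h440 := card_eq_mul_of_fibers' f 8 hfib
  rw [hY] at h440
  have hS : Nat.card (Sylow 3 G) = 55 := by omega
  rw [Sylow.card_eq_index_normalizer P] at hS
  have hS' : (Subgroup.normalizer ((P : Subgroup G) : Set G)).index = 55 := hS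
  have := Subgroup.card_mul_index (Subgroup.normalizer ((P : Subgroup G) : Set G))
  rw [hS', hG] at this
  omega

end Cfsg.Agent.Lib.Helper20.M3
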