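import Cfsg.Agent.Lib.Helper20.M3Defs

set_option autoImplicit false
set_option linter.unusedVariables false

open Cfsg.Agent.Lib.Helper20.M11

namespace Cfsg.Agent.Lib.Helper20.M3

theorem nf_basic (a b c d : ℕ) (h : a + b + c = d) :
    0 ≤ nf a b c ∧ ∃ E : ℤ, nf a b c = (d : ℤ) ^ 2 - 3 * E := by
  constructor
  · have : 2 * nf a b c = ((a : ℤ) - b) ^ 2 + ((a : ℤ) - c) ^ 2 + ((b : ℤ) - c) ^ 2 := by
      unfold nf; ring
    nlinarith [sq_nonneg ((a : ℤ) - b), sq_nonneg ((a : ℤ) - c), sq_nonneg ((b : ℤ) - c)]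
  · refine ⟨(a : ℤ) * b + (a : ℤ) * c + (b : ℤ) * c, ?_⟩
    rw [← h]
    unfold nf
    push_cast
    ring

theorem nf_real (a b : ℕ) : nf a b b = ((a : ℤ) - b) ^ 2 := by
  unfold nf; ring

theorem nf_two (a b c : ℕ) :
    ((a : ℤ) - b) ^ 2 + ((a : ℤ) - c) ^ 2 + (((a : ℤ) - b) - ((a : ℤ) - c)) ^ 2 = 2 * nf a b c := by
  unfold nf; ring

theorem T10 (a b c : ℕ) (h : a + b + c = 10) (hn : nf a b c = 1) :
    (a = 4 ∧ b = 3 ∧ c = 3) ∨ (a = 3 ∧ b = 4 ∧ c = 3) ∨ (a = 3 ∧ b = 3 ∧ c = 4) := by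
  have h2 := nf_two a b c
  rw [hn] at h2
  have bx := bnd (c := (a : ℤ) - b) 1 (by norm_num)
    (by nlinarith [sq_nonneg ((a : ℤ) - c), sq_nonneg (((a : ℤ) - b) - ((a : ℤ) - c))])
  have bz := bnd (c := (a : ℤ) - c) 1 (by norm_num)
    (by nlinarith [sq_nonneg ((a : ℤ) - b), sq_nonneg (((a : ℤ) - b) - ((a : ℤ) - c))])
  clear h2 hn
  omega

theorem T16 (a b c : ℕ) (h : a + b + c = 16) (hn : nf a b c = 4) :
    (a = 4 ∧ b = 6 ∧ c = 6) ∨ (a = 6 ∧ b = 4 ∧ c = 6) ∨ (a = 6 ∧ b = 6 ∧ c = 4) := by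
  have h2 := nf_two a b c
  rw [hn] at h2
  have bx := bnd (c := (a : ℤ) - b) 2 (by norm_num)
    (by nlinarith [sq_nonneg ((a : ℤ) - c), sq_nonneg (((a : ℤ) - b) - ((a : ℤ) - c))])
  have bz := bnd (c := (a : ℤ) - c) 2 (by norm_num)
    (by nlinarith [sq_nonneg ((a : ℤ) - b), sq_nonneg (((a : ℤ) - b) - ((a : ℤ) - c))])
  obtain ⟨x, hx⟩ : ∃ x : ℤ, x = (a : ℤ) - b := ⟨_, rfl⟩
  obtain ⟨z, hz⟩ : ∃ z : ℤ, z = (a : ℤ) - c := ⟨_, rfl⟩
  rw [← hx] at h2 bx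
  rw [← hz] at h2 bz
  obtain ⟨bx1, bx2⟩ := bx
  obtain ⟨bz1, bz2⟩ := bz
  clear hn
  interval_cases x <;> interval_cases z <;> first | (exfalso; norm_num at h2; done) | omega

/-- a square equal to `1` or `4`. -/
theorem sq_cases {v n : ℤ} (h : n = v ^ 2) (hn : n = 1 ∨ n = 4) :
    v = 1 ∨ v = -1 ∨ v = 2 ∨ v = -2 := by
  have b := bnd (c := v) 2 (by norm_num) (by rcases hn with h1 | h1 <;> rw [← h, h1] <;> norm_num)
  obtain ⟨b1, b2⟩ := b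
  interval_cases v <;> omega


set_option maxHeartbeats 1000000 in
theorem num3_core (N h : ℤ) (hNh : N * h = 7920)
    (hN : N = 9 ∨ N = 18 ∨ N = 36 ∨ N = 72 ∨ N = 144)
    (a0 b0 c0 a1 b1 c1 a2 b2 c2 a3 b3 c3 a4 b4 c4 a5 b5 c5 a6 b6 c6 a7 b7 c7 a8 b8 c8
      a9 b9 c9 : ℕ)
    (s0 : a0 + b0 + c0 = 1) (s1 : a1 + b1 + c1 = 10) (s2 : a2 + b2 + c2 = 10)
    (s3 : a3 + b3 + c3 = 10) (s4 : a4 + b4 + c4 = 11) (s5 : a5 + b5 + c5 = 16)
    (s6 : a6 + b6 + c6 = 16) (s7 : a7 + b7 + c7 = 44) (s8 : a8 + b8 + c8 = 45)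
    (s9 : a9 + b9 + c9 = 55)
    (r0 : b0 = c0) (r4 : b4 = c4) (r7 : b7 = c7) (r8 : b8 = c8) (r9 : b9 = c9)
    (hA : 3 * (1 * a0 + 10 * a1 + 10 * a2 + 10 * a3 + 11 * a4 + 16 * a5 + 16 * a6 + 44 * a7 +
      45 * a8 + 55 * a9) = 7920)
    (hB : 3 * (1 * b0 + 10 * b1 + 10 * b2 + 10 * b3 + 11 * b4 + 16 * b5 + 16 * b6 + 44 * b7 +
      45 * b8 + 55 * b9) = 7920)
    (hC : 3 * (1 * c0 + 10 * c1 + 10 * c2 + 10 * c3 + 11 * c4 + 16 * c5 + 16 * c6 + 44 * c7 +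
      45 * c8 + 55 * c9) = 7920)
    (hS : nf a0 b0 c0 + nf a1 b1 c1 + nf a2 b2 c2 + nf a3 b3 c3 + nf a4 b4 c4 + nf a5 b5 c5 +
      nf a6 b6 c6 + nf a7 b7 c7 + nf a8 b8 c8 + nf a9 b9 c9 = N)
    (v5 : (256 : ℤ) ∣ h * h * nf a5 b5 c5) (v6 : (256 : ℤ) ∣ h * h * nf a6 b6 c6)
    (v8 : (2025 : ℤ) ∣ h * h * nf a8 b8 c8) :
    N = 18 ∧ (a0 = 1 ∧ b0 = 0 ∧ c0 = 0) ∧ (a1 = 4 ∧ b1 = 3 ∧ c1 = 3) ∧
      (a2 = 4 ∧ b2 = 3 ∧ c2 = 3) ∧ (a3 = 4 ∧ b3 = 3 ∧ c3 = 3) ∧ (a4 = 5 ∧ b4 = 3 ∧ c4 = 3) ∧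
      (a5 = 4 ∧ b5 = 6 ∧ c5 = 6) ∧ (a6 = 4 ∧ b6 = 6 ∧ c6 = 6) ∧
      (a7 = 14 ∧ b7 = 15 ∧ c7 = 15) ∧ (a8 = 15 ∧ b8 = 15 ∧ c8 = 15) ∧
      (a9 = 19 ∧ b9 = 18 ∧ c9 = 18) := by
  subst r0 r4 r7 r8 r9
  have t0 : a0 = 1 ∧ b0 = 0 := by omega
  obtain ⟨rfl, rfl⟩ := t0
  have n0 : nf 1 0 0 = 1 := by norm_num [nf]
  rw [n0] at hS
  obtain ⟨p1, E1, e1⟩ := nf_basic a1 b1 c1 10 s1
  obtain ⟨p2, E2, e2⟩ := nf_basic a2 b2 c2 10 s2
  obtain ⟨p3, E3, e3⟩ := nf_basic a3 b3 c3 10 s3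
  obtain ⟨p4, E4, e4⟩ := nf_basic a4 b4 b4 11 s4
  obtain ⟨p5, E5, e5⟩ := nf_basic a5 b5 c5 16 s5
  obtain ⟨p6, E6, e6⟩ := nf_basic a6 b6 c6 16 s6
  obtain ⟨p7, E7, e7⟩ := nf_basic a7 b7 b7 44 s7
  obtain ⟨p8, E8, e8⟩ := nf_basic a8 b8 b8 45 s8
  obtain ⟨p9, E9, e9⟩ := nf_basic a9 b9 b9 55 s9
  have q4 := nf_real a4 b4
  have q7 := nf_real a7 b7
  have q8 := nf_real a8 b8
  have q9 := nf_real a9 b9
  have T1 := T10 a1 b1 c1 s1
  have T2 := T10 a2 b2 c2 s2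
  have T3 := T10 a3 b3 c3 s3
  have T5 := T16 a5 b5 c5 s5
  have T6 := T16 a6 b6 c6 s6
  generalize nf a1 b1 c1 = n1 at *
  generalize nf a2 b2 c2 = n2 at *
  generalize nf a3 b3 c3 = n3 at *
  generalize nf a4 b4 b4 = n4 at *
  generalize nf a5 b5 c5 = n5 at *
  generalize nf a6 b6 c6 = n6 at *
  generalize nf a7 b7 b7 = n7 at *
  generalize nf a8 b8 b8 = n8 at *
  generalize nf a9 b9 b9 = n9 at *
  push_cast at e1 e2 e3 e4 e5 e6 e7 e8 e9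
  rcases hN with rfl | rfl | rfl | rfl | rfl
  · -- N = 9
    exfalso
    have hall : n1 = 1 ∧ n2 = 1 ∧ n3 = 1 ∧ n4 = 1 ∧ n5 = 1 ∧ n6 = 1 ∧ n7 = 1 ∧ n8 = 0 ∧ n9 = 1 := by
      clear * - hS p1 p2 p3 p4 p5 p6 p7 p8 p9 e1 e2 e3 e4 e5 e6 e7 e9
      omega
    obtain ⟨-, -, -, m4, -, -, m7, m8, m9⟩ := hall
    have w4 := sq_cases q4 (Or.inl m4)
    have w7 := sq_cases q7 (Or.inl m7)
    have w9 := sq_cases q9 (Or.inl m9)
    have w8 : (a8 : ℤ) - b8 = 0 := by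
      rw [m8] at q8
      exact pow_eq_zero_iff (two_ne_zero) |>.1 q8.symm
    have y4 : (a4 : ℤ) - b4 = -1 := by
      rcases w4 with w | w | w | w
      · exfalso; clear * - w s4; omega
      · exact w
      · exfalso; rw [q4, w] at m4; norm_num at m4
      · exfalso; rw [q4, w] at m4; norm_num at m4
    have y7 : (a7 : ℤ) - b7 = -1 := by
      rcases w7 with w | w | w | w
      · exfalso; clear * - w s7; omega
      · exact w
      · exfalso; rw [q7, w] at m7; norm_num at m7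
      · exfalso; rw [q7, w] at m7; norm_num at m7
    have y9 : (a9 : ℤ) - b9 = 1 := by
      rcases w9 with w | w | w | w
      · exact w
      · exfalso; clear * - w s9; omega
      · exfalso; rw [q9, w] at m9; norm_num at m9
      · exfalso; rw [q9, w] at m9; norm_num at m9
    clear * - y4 y7 w8 y9 s4 s7 s8 s9 hC
    omega
  · -- N = 18
    have hh : h = 440 := by clear * - hNh; omega
    subst hh
    have u8 : (81 : ℤ) ∣ n8 := by clear * - v8; omega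
    have u5 : (4 : ℤ) ∣ n5 := by clear * - v5; omega
    have u6 : (4 : ℤ) ∣ n6 := by clear * - v6; omega
    have m8 : n8 = 0 := by
      clear * - hS p1 p2 p3 p4 p5 p6 p7 p8 p9 u8
      omega
    have l1 : 1 ≤ n1 := by clear * - p1 e1; omega
    have l2 : 1 ≤ n2 := by clear * - p2 e2; omega
    have l3 : 1 ≤ n3 := by clear * - p3 e3; omega
    have l4 : 1 ≤ n4 := by clear * - p4 e4; omega
    have l7 : 1 ≤ n7 := by clear * - p7 e7; omega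
    have l9 : 1 ≤ n9 := by clear * - p9 e9; omega
    have l5 : n5 = 4 ∨ 16 ≤ n5 := by clear * - p5 e5 u5; omega
    have l6 : n6 = 4 ∨ 16 ≤ n6 := by clear * - p6 e6 u6; omega
    have m56 : n5 = 4 ∧ n6 = 4 := by
      clear * - hS l1 l2 l3 l4 l5 l6 l7 l9 p8
      omega
    obtain ⟨m5, m6⟩ := m56
    have c1 : n1 = 1 ∨ n1 = 4 := by
      clear * - hS l1 l2 l3 l4 l7 l9 e1 m5 m6 m8
      omega
    have c2 : n2 = 1 ∨ n2 = 4 := by
      clear * - hS l1 l2 l3 l4 l7 l9 e2 m5 m6 m8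
      omega
    have c3 : n3 = 1 ∨ n3 = 4 := by
      clear * - hS l1 l2 l3 l4 l7 l9 e3 m5 m6 m8
      omega
    have c4 : n4 = 1 ∨ n4 = 4 := by
      clear * - hS l1 l2 l3 l4 l7 l9 e4 m5 m6 m8
      omega
    have c7 : n7 = 1 ∨ n7 = 4 := by
      clear * - hS l1 l2 l3 l4 l7 l9 e7 m5 m6 m8
      omega
    have c9 : n9 = 1 ∨ n9 = 4 := by
      clear * - hS l1 l2 l3 l4 l7 l9 e9 m5 m6 m8
      omega
    have w4 := sq_cases q4 c4
    have w7 := sq_cases q7 c7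
    have w9 := sq_cases q9 c9
    have w8 : (a8 : ℤ) - b8 = 0 := by
      rw [m8] at q8
      exact pow_eq_zero_iff (two_ne_zero) |>.1 q8.symm
    have T5' := T5 m5
    have T6' := T6 m6
    -- parity: exactly one of n4, n9 equals 4
    have par : (n4 = 4 ∧ n9 = 1) ∨ (n4 = 1 ∧ n9 = 4) := by
      have x4 : ((a4 : ℤ) - b4 = -1 ∧ n4 = 1) ∨ ((a4 : ℤ) - b4 = 2 ∧ n4 = 4) := by
        rcases w4 with w | w | w | w
        · exfalso; clear * - w s4; omega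
        · left; exact ⟨w, by rw [q4, w]; norm_num⟩
        · right; exact ⟨w, by rw [q4, w]; norm_num⟩
        · exfalso; clear * - w s4; omega
      have x9 : ((a9 : ℤ) - b9 = 1 ∧ n9 = 1) ∨ ((a9 : ℤ) - b9 = -2 ∧ n9 = 4) := by
        rcases w9 with w | w | w | w
        · left; exact ⟨w, by rw [q9, w]; norm_num⟩
        · exfalso; clear * - w s9; omega
        · exfalso; clear * - w s9; omega
        · right; exact ⟨w, by rw [q9, w]; norm_num⟩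
      clear * - x4 x9 s4 s9 w8 s8 hC
      omega
    have m123 : n1 = 1 ∧ n2 = 1 ∧ n3 = 1 ∧ n7 = 1 := by
      clear * - par hS c1 c2 c3 c7 m5 m6 m8
      omega
    obtain ⟨m1, m2, m3, m7⟩ := m123
    have T1' := T1 m1
    have T2' := T2 m2
    have T3' := T3 m3
    have y7 : (a7 : ℤ) - b7 = -1 := by
      rcases w7 with w | w | w | w
      · exfalso; clear * - w s7; omega
      · exact w
      · exfalso; rw [q7, w] at m7; norm_num at m7
      · exfalso; rw [q7, w] at m7; norm_num at m7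
    have y49 : ((a4 : ℤ) - b4 = 2 ∧ (a9 : ℤ) - b9 = 1) ∨ ((a4 : ℤ) - b4 = -1 ∧ (a9 : ℤ) - b9 = -2) := by
      rcases par with ⟨k4, k9⟩ | ⟨k4, k9⟩
      · left
        constructor
        · rcases w4 with w | w | w | w
          · exfalso; clear * - w s4; omega
          · exfalso; rw [q4, w] at k4; norm_num at k4
          · exact w
          · exfalso; clear * - w s4; omega
        · rcases w9 with w | w | w | w
          · exact w
          · exfalso; clear * - w s9; omega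
          · exfalso; clear * - w s9; omega
          · exfalso; rw [q9, w] at k9; norm_num at k9
      · right
        constructor
        · rcases w4 with w | w | w | w
          · exfalso; clear * - w s4; omega
          · exact w
          · exfalso; rw [q4, w] at k4; norm_num at k4
          · exfalso; clear * - w s4; omega
        · rcases w9 with w | w | w | w
          · exfalso; rw [q9, w] at k9; norm_num at k9
          · exfalso; clear * - w s9; omega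
          · exfalso; clear * - w s9; omega
          · exact w
    have A1 : 3 ≤ a1 ∧ a1 ≤ 4 := by clear * - T1'; omega
    have A2 : 3 ≤ a2 ∧ a2 ≤ 4 := by clear * - T2'; omega
    have A3 : 3 ≤ a3 ∧ a3 ≤ 4 := by clear * - T3'; omega
    have A5 : a5 = 4 ∨ a5 = 6 := by clear * - T5'; omega
    have A6 : a6 = 4 ∨ a6 = 6 := by clear * - T6'; omega
    have fin : a1 = 4 ∧ a2 = 4 ∧ a3 = 4 ∧ a5 = 4 ∧ a6 = 4 ∧ (a4 : ℤ) - b4 = 2 ∧
        (a9 : ℤ) - b9 = 1 := by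
      clear * - A1 A2 A3 A5 A6 y7 y49 w8 s4 s7 s8 s9 hA
      omega
    obtain ⟨f1, f2, f3, f5, f6, f4, f9⟩ := fin
    refine ⟨rfl, ⟨rfl, rfl, rfl⟩, ?_, ?_, ?_, ?_, ?_, ?_, ?_, ?_, ?_⟩
    · clear * - T1' f1; omega
    · clear * - T2' f2; omega
    · clear * - T3' f3; omega
    · clear * - f4 s4; omega
    · clear * - T5' f5; omega
    · clear * - T6' f6; omega
    · clear * - y7 s7; omega
    · clear * - w8 s8; omega
    · clear * - f9 s9; omega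
  · exfalso
    have hh : h = 220 := by clear * - hNh; omega
    subst hh
    have u5 : (16 : ℤ) ∣ n5 := by clear * - v5; omega
    have u6 : (16 : ℤ) ∣ n6 := by clear * - v6; omega
    have l1 : 1 ≤ n1 := by clear * - p1 e1; omega
    have l2 : 1 ≤ n2 := by clear * - p2 e2; omega
    have l3 : 1 ≤ n3 := by clear * - p3 e3; omega
    have l4 : 1 ≤ n4 := by clear * - p4 e4; omega
    have l7 : 1 ≤ n7 := by clear * - p7 e7; omega
    have l9 : 1 ≤ n9 := by clear * - p9 e9; omega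
    have l5 : 16 ≤ n5 := by clear * - p5 e5 u5; omega
    have l6 : 16 ≤ n6 := by clear * - p6 e6 u6; omega
    clear * - hS l1 l2 l3 l4 l5 l6 l7 l9 p8
    omega
  · exfalso
    have hh : h = 110 := by clear * - hNh; omega
    subst hh
    have u5 : (64 : ℤ) ∣ n5 := by clear * - v5; omega
    have u6 : (64 : ℤ) ∣ n6 := by clear * - v6; omega
    have l5 : 64 ≤ n5 := by clear * - p5 e5 u5; omega
    have l6 : 64 ≤ n6 := by clear * - p6 e6 u6; omega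
    clear * - hS p1 p2 p3 p4 l5 l6 p7 p8 p9
    omega
  · exfalso
    have hh : h = 55 := by clear * - hNh; omega
    subst hh
    have u5 : (256 : ℤ) ∣ n5 := by clear * - v5; omega
    have l5 : 256 ≤ n5 := by clear * - p5 e5 u5; omega
    clear * - hS p1 p2 p3 p4 l5 p6 p7 p8 p9
    omega

theorem sum_fin10_nat (F : Fin 10 → ℕ) :
    ∑ j, F j = F 0 + F 1 + F 2 + F 3 + F 4 + F 5 + F 6 + F 7 + F 8 + F 9 := by
  simp only [Fin.sum_univ_succ, Fin.sum_univ_zero]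
  show F 0 + (F 1 + (F 2 + (F 3 + (F 4 + (F 5 + (F 6 + (F 7 + (F 8 + (F 9 + 0))))))))) = _
  ring

theorem num3 (N h : ℤ) (hNh : N * h = 7920)
    (hN : N = 9 ∨ N = 18 ∨ N = 36 ∨ N = 72 ∨ N = 144) (A B C : Fin 10 → ℕ)
    (hsum : ∀ j, A j + B j + C j = D10 j)
    (hreal : ∀ j : Fin 10, j = 0 ∨ j = 4 ∨ j = 7 ∨ j = 8 ∨ j = 9 → B j = C j)
    (hA : 3 * ∑ j, D10 j * A j = 7920) (hB : 3 * ∑ j, D10 j * B j = 7920)
    (hC : 3 * ∑ j, D10 j * C j = 7920)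
    (hS : ∑ j, nf (A j) (B j) (C j) = N)
    (hdiv : ∀ j, ((D10 j : ℤ)) ^ 2 ∣ h ^ 2 * nf (A j) (B j) (C j)) :
    N = 18 ∧ A = ![1, 4, 4, 4, 5, 4, 4, 14, 15, 19] ∧ B = ![0, 3, 3, 3, 3, 6, 6, 15, 15, 18] ∧
      C = ![0, 3, 3, 3, 3, 6, 6, 15, 15, 18] := by
  have d0 : D10 0 = 1 := rfl
  have d1 : D10 1 = 10 := rfl
  have d2 : D10 2 = 10 := rfl
  have d3 : D10 3 = 10 := rfl
  have d4 : D10 4 = 11 := rfl
  have d5 : D10 5 = 16 := rfl
  have d6 : D10 6 = 16 := rfl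
  have d7 : D10 7 = 44 := rfl
  have d8 : D10 8 = 45 := rfl
  have d9 : D10 9 = 55 := rfl
  rw [sum_fin10_nat, d0, d1, d2, d3, d4, d5, d6, d7, d8, d9] at hA hB hC
  rw [sum_fin10] at hS
  have v5 := hdiv 5
  have v6 := hdiv 6
  have v8 := hdiv 8
  rw [d5, pow_two h] at v5
  rw [d6, pow_two h] at v6
  rw [d8, pow_two h] at v8
  norm_num at v5 v6 v8
  obtain ⟨r, ⟨x0, y0, z0⟩, ⟨x1, y1, z1⟩, ⟨x2, y2, z2⟩, ⟨x3, y3, z3⟩, ⟨x4, y4, z4⟩, ⟨x5, y5, z5⟩,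
    ⟨x6, y6, z6⟩, ⟨x7, y7, z7⟩, ⟨x8, y8, z8⟩, ⟨x9, y9, z9⟩⟩ :=
    num3_core N h hNh hN (A 0) (B 0) (C 0) (A 1) (B 1) (C 1) (A 2) (B 2) (C 2) (A 3) (B 3) (C 3)
      (A 4) (B 4) (C 4) (A 5) (B 5) (C 5) (A 6) (B 6) (C 6) (A 7) (B 7) (C 7) (A 8) (B 8) (C 8)
      (A 9) (B 9) (C 9) (hsum 0) (hsum 1) (hsum 2) (hsum 3) (hsum 4) (hsum 5) (hsum 6) (hsum 7)
      (hsum 8) (hsum 9) (hreal 0 (by simp)) (hreal 4 (by simp)) (hreal 7 (by simp))
      (hreal 8 (by simp)) (hreal 9 (by simp)) hA hB hC hS v5 v6 v8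
  refine ⟨r, ?_, ?_, ?_⟩
  · funext j
    fin_cases j
    · exact x0
    · exact x1
    · exact x2
    · exact x3
    · exact x4
    · exact x5
    · exact x6
    · exact x7
    · exact x8
    · exact x9
  · funext j
    fin_cases j
    · exact y0
    · exact y1
    · exact y2
    · exact y3
    · exact y4
    · exact y5
    · exact y6
    · exact y7
    · exact y8
    · exact y9
  · funext j
    fin_cases j
    · exact z0
    · exact z1
    · exact z2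
    · exact z3
    · exact z4
    · exact z5
    · exact z6
    · exact z7
    · exact z8
    · exact z9

end Cfsg.Agent.Lib.Helper20.M3
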