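import Cfsg.Agent.Lib.Helper20.M3Orth
import Cfsg.Agent.Lib.Helper4.CharConj

set_option autoImplicit false
set_option linter.unusedVariables false

open Cfsg Cfsg.Agent.Lib.Helper82 Cfsg.Agent.Lib.Helper81 Cfsg.Agent.Lib.Helper20.M11
open scoped ComplexConjugate

namespace Cfsg.Agent.Lib.Helper20.M3

theorem mult_eq_of_unique_degree {G : Type*} [Group G] [Finite G] (χ : IrrCharacter G)
    (huniq : ∀ χ' : IrrCharacter G, charDegree (χ' : G → ℂ) = charDegree (χ : G → ℂ) → χ' = χ)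
    (y : G) (hy : y ^ 3 = 1) (ω : ℂ) (hω : ω ^ 2 + ω + 1 = 0) (a b c : ℕ)
    (h2 : (χ : G → ℂ) y = a + b * ω + c * ω ^ 2)
    (h3 : (χ : G → ℂ) (y ^ 2) = a + b * ω ^ 2 + c * ω) : b = c := by
  obtain ⟨hω3, hω1, hω2, hω12⟩ := omega_facts hω
  have h1 : Cfsg.Agent.Lib.Helper4.irrConj χ = χ := by
    apply huniq
    unfold charDegree
    rw [Cfsg.Agent.Lib.Helper4.irrConj_apply, Complex.conj_re]
  have h4 : conj ((χ : G → ℂ) y) = (χ : G → ℂ) y := by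
    conv_rhs => rw [← h1]
    rw [Cfsg.Agent.Lib.Helper4.irrConj_apply]
  rw [conj_eq_sq (isIrr_isChar χ.2) hy, h2, h3] at h4
  have h5 : ((b : ℂ) - c) * (ω ^ 2 - ω) = 0 := by linear_combination h4
  rcases mul_eq_zero.1 h5 with h | h
  · exact_mod_cast sub_eq_zero.1 h
  · exact absurd (sub_eq_zero.1 h) hω12

theorem sq_deg_dvd {G : Type*} [Group G] [Finite G] (χ : IrrCharacter G) (y : G) (hy : y ^ 3 = 1)
    (ω : ℂ) (hω : ω ^ 2 + ω + 1 = 0) (a b c : ℕ)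
    (h2 : (χ : G → ℂ) y = a + b * ω + c * ω ^ 2)
    (h3 : (χ : G → ℂ) (y ^ 2) = a + b * ω ^ 2 + c * ω) :
    ((charDegree (χ : G → ℂ) : ℤ)) ^ 2 ∣
      ((Subgroup.centralizer ({y} : Set G)).index : ℤ) ^ 2 * nf a b c := by
  classical
  haveI := Fintype.ofFinite G
  have hint := centralChar_isIntegral χ y
  have hint2 := map_isIntegral_int (starRingEnd ℂ) hint
  have hint3 := hint.mul hint2
  unfold centralChar at hint3
  rw [isChar_one_eq (isIrr_isChar χ.2)] at hint3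
  set k := (Subgroup.centralizer ({y} : Set G)).index with hk
  set n := charDegree (χ : G → ℂ) with hn
  set v := nf a b c with hv
  have hn0 : n ≠ 0 := (isIrr_charDegree_pos χ.2).ne'
  have hn0c : (n : ℂ) ≠ 0 := Nat.cast_ne_zero.2 hn0
  have e : ((k : ℂ) * (χ : G → ℂ) y / n) * conj ((k : ℂ) * (χ : G → ℂ) y / n) =
      (k : ℂ) ^ 2 * (v : ℂ) / (n : ℂ) ^ 2 := by
    rw [map_div₀, map_mul, Complex.conj_natCast, Complex.conj_natCast,
      conj_eq_sq (isIrr_isChar χ.2) hy, h2, h3, hv, nf_eq hω]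
    field_simp
  rw [e] at hint3
  have hq : IsIntegral ℤ ((k : ℚ) ^ 2 * (v : ℚ) / (n : ℚ) ^ 2) := by
    have h1 : ((k : ℂ) ^ 2 * (v : ℂ) / (n : ℂ) ^ 2) =
        algebraMap ℚ ℂ ((k : ℚ) ^ 2 * (v : ℚ) / (n : ℚ) ^ 2) := by
      simp
    rw [h1] at hint3
    exact (isIntegral_algebraMap_iff (algebraMap ℚ ℂ).injective).1 hint3
  obtain ⟨z, hz⟩ := IsIntegrallyClosed.isIntegral_iff.1 hq
  have hz' : (z : ℚ) = (k : ℚ) ^ 2 * (v : ℚ) / (n : ℚ) ^ 2 := by simpa using hz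
  have hn0' : (n : ℚ) ≠ 0 := Nat.cast_ne_zero.2 hn0
  have h2 : (z : ℚ) * (n : ℚ) ^ 2 = (k : ℚ) ^ 2 * v := by rw [hz']; field_simp
  have h3 : z * (n : ℤ) ^ 2 = (k : ℤ) ^ 2 * v := by exact_mod_cast h2
  exact ⟨z, by rw [← h3]; ring⟩

end Cfsg.Agent.Lib.Helper20.M3
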