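import Cfsg.Agent.Lib.Helper20.M3Defs
import Cfsg.Agent.Lib.Helper20.M3Loc
import Cfsg.Agent.Lib.Helper20.M3Num
import Cfsg.Agent.Lib.Helper20.M3Real
import Cfsg.Agent.Lib.Helper20.M3Grp
import Cfsg.Agent.S0435

set_option autoImplicit false
set_option linter.unusedSectionVars false
set_option linter.unusedVariables false
set_option linter.style.haveILetI false

open Cfsg Cfsg.Agent.Lib.Helper82 Cfsg.Agent.Lib.Helper81 Cfsg.Agent.Lib.Helper20.M11
open scoped ComplexConjugate

namespace Cfsg.Agent.Lib.Helper20.M3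

/- ================= ASSEMBLY (helper20) ================= -/

theorem order3_facts {G : Type*} [Group G] [Finite G] (hG : Cfsg.IsM11 G) :
    (∀ y : G, orderOf y = 3 → Nat.card (Subgroup.centralizer ({y} : Set G)) = 18) ∧
    (∀ y y' : G, orderOf y = 3 → orderOf y' = 3 → IsConj y y') := by
  classical
  obtain ⟨hs, hcard⟩ := hG
  haveI := hs
  haveI := Fintype.ofFinite G
  haveI : Finite (IrrCharacter G) := Cfsg.Agent.Lib.Helper20.finite_irrCharacter
  haveI := Fintype.ofFinite (IrrCharacter G)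
  obtain ⟨h11, h5⟩ := local_facts hcard
  obtain ⟨-, hdeg⟩ := Cfsg.Agent.S4429.result hcard
  obtain ⟨e, he⟩ := exists_equiv_of_fiber_card (fun χ : IrrCharacter G => charDegree (χ : G → ℂ))
    D10 (fun n => by rw [hdeg n, card_D10 n])
  obtain ⟨ω, hω⟩ : ∃ ω : ℂ, ω ^ 2 + ω + 1 = 0 := by
    obtain ⟨ω, hω⟩ := IsAlgClosed.exists_root (Polynomial.X ^ 2 + Polynomial.X + 1 : Polynomial ℂ)
      (by
        have : (Polynomial.X ^ 2 + Polynomial.X + 1 : Polynomial ℂ).degree = 2 := by
          compute_degree!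
        rw [this]; norm_num)
    refine ⟨ω, ?_⟩
    simpa using hω
  have key : ∀ y : G, orderOf y = 3 →
      Nat.card (Subgroup.centralizer ({y} : Set G)) = 18 ∧
      ∀ j : Fin 10, ((e j : IrrCharacter G) : G → ℂ) y =
        ((![1, 4, 4, 4, 5, 4, 4, 14, 15, 19] : Fin 10 → ℕ) j : ℂ) +
        ((![0, 3, 3, 3, 3, 6, 6, 15, 15, 18] : Fin 10 → ℕ) j : ℂ) * ω +
        ((![0, 3, 3, 3, 3, 6, 6, 15, 15, 18] : Fin 10 → ℕ) j : ℂ) * ω ^ 2 := by
    intro y hy
    have hy3 : y ^ 3 = 1 := by rw [← hy]; exact pow_orderOf_eq_one y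
    have hex := fun χ : IrrCharacter G => exists_mult (χ : G → ℂ) (isIrr_isChar χ.2) y hy3 ω hω
    choose a b c h1 h2 h3 using hex
    obtain ⟨sA, sB, sC, sS⟩ := sum_mult y hy ω hω a b c h1 h2 h3
    rw [hcard] at sA sB sC
    rw [← e.sum_comp] at sA sB sC sS
    simp only [he] at sA sB sC
    have huq : ∀ j : Fin 10, (j = 0 ∨ j = 4 ∨ j = 7 ∨ j = 8 ∨ j = 9) →
        ∀ χ' : IrrCharacter G, charDegree (χ' : G → ℂ) = charDegree ((e j : IrrCharacter G) : G → ℂ) →
          χ' = e j := by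
      intro j hj χ' hχ'
      obtain ⟨i, rfl⟩ := e.surjective χ'
      rw [he i, he j] at hχ'
      congr 1
      revert i j
      decide
    have hNh : (Nat.card (Subgroup.centralizer ({y} : Set G)) : ℤ) *
        ((Subgroup.centralizer ({y} : Set G)).index : ℤ) = 7920 := by
      have := Subgroup.card_mul_index (Subgroup.centralizer ({y} : Set G))
      rw [hcard] at this
      exact_mod_cast this
    obtain ⟨r1, r2, r3, r4⟩ := num3 _ _ hNh
      (by
        rcases card_centralizer_cases hcard h11 h5 y hy with h | h | h | h | h <;> rw [h] <;> simp)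
      (fun j => a (e j)) (fun j => b (e j)) (fun j => c (e j))
      (fun j => by rw [h1, he]) (fun j hj => mult_eq_of_unique_degree (e j) (huq j hj) y hy3 ω hω _ _ _
        (h2 (e j)) (h3 (e j))) sA sB sC sS
      (fun j => by
        have := sq_deg_dvd (e j) y hy3 ω hω _ _ _ (h2 (e j)) (h3 (e j))
        rw [he j] at this
        exact this)
    refine ⟨by exact_mod_cast r1, fun j => ?_⟩
    have e2 := congrFun r2 j
    have e3 := congrFun r3 j
    have e4 := congrFun r4 j
    rw [h2 (e j), e2, e3, e4]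
  refine ⟨fun y hy => (key y hy).1, fun y y' hy hy' => ?_⟩
  by_contra hnc
  have h1 := Cfsg.Agent.Lib.Helper20.sum_irr_mul_conj y y'
  rw [if_neg hnc] at h1
  have h2 := Cfsg.Agent.Lib.Helper20.sum_irr_mul_conj y y
  rw [if_pos (IsConj.refl y), (key y hy).1] at h2
  have h3 : ∀ χ : IrrCharacter G, (χ : G → ℂ) y' = (χ : G → ℂ) y := by
    intro χ
    obtain ⟨j, rfl⟩ := e.surjective χ
    rw [(key y hy).2 j, (key y' hy').2 j]
  simp only [h3] at h1
  rw [h1] at h2
  norm_num at h2

theorem main {G : Type*} [Group G] [Finite G] (hG : Cfsg.IsM11 G) (P : Sylow 3 G) :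
    Nat.card (Subgroup.normalizer ((P : Subgroup G) : Set G)) = 144 := by
  obtain ⟨h3, hc⟩ := order3_facts hG
  have h2 := fun x hx => Cfsg.Agent.S0435.result hG x hx
  have huniq := sylow_unique_of_mem hG.2 h3
  exact card_normalizer hG.2 h3 hc huniq (exp_three hG.2 h2 h3 huniq) P

end Cfsg.Agent.Lib.Helper20.M3
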