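import Cfsg.Agent.Lib.Helper20.M3Eig

set_option autoImplicit false
set_option linter.unusedVariables false

open Cfsg Cfsg.Agent.Lib.Helper82 Cfsg.Agent.Lib.Helper81 Cfsg.Agent.Lib.Helper20.M11
open scoped ComplexConjugate

namespace Cfsg.Agent.Lib.Helper20.M3

theorem nf_eq {ω : ℂ} (hω : ω ^ 2 + ω + 1 = 0) (a b c : ℕ) :
    ((nf a b c : ℤ) : ℂ) = ((a : ℂ) + b * ω + c * ω ^ 2) * ((a : ℂ) + b * ω ^ 2 + c * ω) := by
  unfold nf
  push_cast
  linear_combination (-(((b : ℂ) ^ 2 + (c : ℂ) ^ 2) * (ω - 1) + (a : ℂ) * b + (a : ℂ) * c +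
    (b : ℂ) * c * (1 + ω * (ω - 1)))) * hω

theorem conj_eq_sq {G : Type*} [Group G] [Finite G] {χ : G → ℂ} (hχ : IsCharacter G χ) {y : G}
    (hy : y ^ 3 = 1) : conj (χ y) = χ (y ^ 2) := by
  rw [← Cfsg.Agent.Lib.Helper20.isCharacter_inv hχ y]
  congr 1
  rw [inv_eq_iff_mul_eq_one, ← pow_succ', hy]

theorem sum_mult {G : Type*} [Group G] [Fintype G] [Fintype (IrrCharacter G)] (y : G)
    (hy : orderOf y = 3) (ω : ℂ) (hω : ω ^ 2 + ω + 1 = 0) (a b c : IrrCharacter G → ℕ)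
    (h1 : ∀ χ : IrrCharacter G, a χ + b χ + c χ = charDegree (χ : G → ℂ))
    (h2 : ∀ χ : IrrCharacter G, (χ : G → ℂ) y = a χ + b χ * ω + c χ * ω ^ 2)
    (h3 : ∀ χ : IrrCharacter G, (χ : G → ℂ) (y ^ 2) = a χ + b χ * ω ^ 2 + c χ * ω) :
    3 * ∑ χ : IrrCharacter G, charDegree (χ : G → ℂ) * a χ = Nat.card G ∧
    3 * ∑ χ : IrrCharacter G, charDegree (χ : G → ℂ) * b χ = Nat.card G ∧
    3 * ∑ χ : IrrCharacter G, charDegree (χ : G → ℂ) * c χ = Nat.card G ∧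
    ∑ χ : IrrCharacter G, nf (a χ) (b χ) (c χ) =
      (Nat.card (Subgroup.centralizer ({y} : Set G)) : ℤ) := by
  classical
  have hy3 : y ^ 3 = 1 := by rw [← hy]; exact pow_orderOf_eq_one y
  have hy1 : y ≠ 1 := by rintro rfl; simp at hy
  have hy2 : y ^ 2 ≠ 1 := by
    intro h
    have := orderOf_dvd_of_pow_eq_one h
    rw [hy] at this; norm_num at this
  have hd : ∀ χ : IrrCharacter G, (χ : G → ℂ) 1 = (charDegree (χ : G → ℂ) : ℂ) :=
    fun χ => isChar_one_eq (isIrr_isChar χ.2)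
  have hc1 : Nat.card (Subgroup.centralizer ({1} : Set G)) = Nat.card G := by
    have : Subgroup.centralizer ({1} : Set G) = ⊤ := by
      ext; simp [Subgroup.mem_centralizer_iff]
    rw [this]; simp
  have E0 := Cfsg.Agent.Lib.Helper20.sum_irr_mul_conj (1 : G) 1
  rw [if_pos (IsConj.refl 1), hc1] at E0
  have E1 := Cfsg.Agent.Lib.Helper20.sum_irr_mul_conj y 1
  rw [if_neg (fun h => hy1 (isConj_one_left.1 h))] at E1
  have E2 := Cfsg.Agent.Lib.Helper20.sum_irr_mul_conj (y ^ 2) 1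
  rw [if_neg (fun h => hy2 (isConj_one_left.1 h))] at E2
  have E3 := Cfsg.Agent.Lib.Helper20.sum_irr_mul_conj y y
  rw [if_pos (IsConj.refl y)] at E3
  simp only [hd, Complex.conj_natCast] at E0 E1 E2
  have SA : (3 : ℂ) * ∑ χ : IrrCharacter G, (charDegree (χ : G → ℂ) : ℂ) * a χ = Nat.card G := by
    have key : (3 : ℂ) * ∑ χ : IrrCharacter G, (charDegree (χ : G → ℂ) : ℂ) * a χ =
        ∑ χ : IrrCharacter G, (charDegree (χ : G → ℂ) : ℂ) * (charDegree (χ : G → ℂ) : ℂ) +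
        ∑ χ : IrrCharacter G, (χ : G → ℂ) y * (charDegree (χ : G → ℂ) : ℂ) +
        ∑ χ : IrrCharacter G, (χ : G → ℂ) (y ^ 2) * (charDegree (χ : G → ℂ) : ℂ) := by
      rw [Finset.mul_sum, ← Finset.sum_add_distrib, ← Finset.sum_add_distrib]
      apply Finset.sum_congr rfl
      intro χ _
      rw [h2, h3, ← h1]
      push_cast
      linear_combination (-((a χ : ℂ) + b χ + c χ) * ((b χ : ℂ) + c χ)) * hω
    rw [key, E0, E1, E2, add_zero, add_zero]
  have SB : (3 : ℂ) * ∑ χ : IrrCharacter G, (charDegree (χ : G → ℂ) : ℂ) * b χ = Nat.card G := by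
    have key : (3 : ℂ) * ∑ χ : IrrCharacter G, (charDegree (χ : G → ℂ) : ℂ) * b χ =
        ∑ χ : IrrCharacter G, (charDegree (χ : G → ℂ) : ℂ) * (charDegree (χ : G → ℂ) : ℂ) +
        ω ^ 2 * ∑ χ : IrrCharacter G, (χ : G → ℂ) y * (charDegree (χ : G → ℂ) : ℂ) +
        ω * ∑ χ : IrrCharacter G, (χ : G → ℂ) (y ^ 2) * (charDegree (χ : G → ℂ) : ℂ) := by
      rw [Finset.mul_sum, Finset.mul_sum, Finset.mul_sum, ← Finset.sum_add_distrib,
        ← Finset.sum_add_distrib]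
      apply Finset.sum_congr rfl
      intro χ _
      rw [h2, h3, ← h1]
      push_cast
      linear_combination (-((a χ : ℂ) + b χ + c χ) * ((a χ : ℂ) + 2 * b χ * (ω - 1) + c χ +
        c χ * ω * (ω - 1))) * hω
    rw [key, E0, E1, E2, mul_zero, mul_zero, add_zero, add_zero]
  have SC : (3 : ℂ) * ∑ χ : IrrCharacter G, (charDegree (χ : G → ℂ) : ℂ) * c χ = Nat.card G := by
    have key : (3 : ℂ) * ∑ χ : IrrCharacter G, (charDegree (χ : G → ℂ) : ℂ) * c χ =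
        ∑ χ : IrrCharacter G, (charDegree (χ : G → ℂ) : ℂ) * (charDegree (χ : G → ℂ) : ℂ) +
        ω * ∑ χ : IrrCharacter G, (χ : G → ℂ) y * (charDegree (χ : G → ℂ) : ℂ) +
        ω ^ 2 * ∑ χ : IrrCharacter G, (χ : G → ℂ) (y ^ 2) * (charDegree (χ : G → ℂ) : ℂ) := by
      rw [Finset.mul_sum, Finset.mul_sum, Finset.mul_sum, ← Finset.sum_add_distrib,
        ← Finset.sum_add_distrib]
      apply Finset.sum_congr rfl
      intro χ _
      rw [h2, h3, ← h1]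
      push_cast
      linear_combination (-((a χ : ℂ) + b χ + c χ) * ((a χ : ℂ) + 2 * c χ * (ω - 1) + b χ +
        b χ * ω * (ω - 1))) * hω
    rw [key, E0, E1, E2, mul_zero, mul_zero, add_zero, add_zero]
  refine ⟨by exact_mod_cast SA, by exact_mod_cast SB, by exact_mod_cast SC, ?_⟩
  have SN : ((∑ χ : IrrCharacter G, nf (a χ) (b χ) (c χ) : ℤ) : ℂ) =
      (Nat.card (Subgroup.centralizer ({y} : Set G)) : ℂ) := by
    rw [← E3]
    push_cast
    apply Finset.sum_congr rfl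
    intro χ _
    rw [conj_eq_sq (isIrr_isChar χ.2) hy3, h2, h3, nf_eq hω]
  exact_mod_cast SN

end Cfsg.Agent.Lib.Helper20.M3
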