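import Cfsg.Agent.Lib.Helper20.FreeNil
import Cfsg.Agent.Lib.Helper21.ExtFirstMain
import Cfsg.Agent.Lib.Helper21.FirstMain
import Cfsg.Agent.Lib.Helper80.GASplitK

set_option autoImplicit false
set_option linter.unusedSectionVars false
set_option linter.style.haveILetI false

/-!
# Abelian defect groups: a block is nilpotent iff its Brauer correspondent is
-/

namespace Cfsg.Agent.Lib.Helper20

open Cfsg Cfsg.Agent.Lib.Helper81 Cfsg.Agent.Lib.Helper19 Cfsg.Agent.Lib.Helper21
open Cfsg.Agent.Lib.Helper80 Cfsg.Agent.Lib.Helper80.GA Cfsg.Agent.Lib.Helper29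

variable {G : Type*} [Group G] [Fintype G] {p : ℕ} [Fact p.Prime] {M : Ideal AlgInt}

/-- existence of the block of `L` induced by a block of `C_G(P)`, `P C_G(P) ≤ L`. -/
theorem exists_downBlock_induced (hM : IsPModular p M) {P L : Subgroup G} (hP : IsPGroup p P)
    (hPC : P ≤ Cn P) (hKL : Cn P ≤ L) {c : Set (IrrCharacter (Cn P))}
    (hc : IsPBlock M c) :
    ∃ f : Set (IrrCharacter L), IsInducedBlock M ((Cn P).subgroupOf L) (downBlock hKL c) f := by
  haveI : Fintype L := Fintype.ofFinite _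
  have hPL : P ≤ L := hPC.trans hKL
  exact Cfsg.Agent.S0919.result p M hM (P.subgroupOf L)
    ((Cn P).subgroupOf L) hP.comap_subtype
    (by
      intro x hx
      exact Subgroup.mem_subgroupOf.2 (hPC (Subgroup.mem_subgroupOf.1 hx)))
    (by
      intro x hx
      rw [Subgroup.mem_subgroupOf, mem_Cn]
      intro u hu
      have := Subgroup.mem_centralizer_iff.1 hx ⟨u, hPL hu⟩ (Subgroup.mem_subgroupOf.2 hu)
      exact congrArg Subtype.val this)
    (by
      intro x hx
      have h1 : (x : G) ∈ Nn P := Cn_le_Nn P (Subgroup.mem_subgroupOf.1 hx)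
      have h2 : (x : G) ∈ up L (Nn (P.subgroupOf L)) := by
        rw [up_Nn, up_subgroupOf _ hPL]
        exact ⟨x.2, h1⟩
      exact (coe_mem_up _).1 h2)
    (downBlock hKL c) (isPBlock_downBlock hKL hc)

/-- **Abelian defect group**: `B` is nilpotent iff its Brauer correspondent in `N_G(P)` is. -/
theorem nilpotent_corr_iff (hM : IsPModular p M) {B : Set (IrrCharacter G)} {P : Subgroup G}
    (hPD : IsDefectGroup p M B P) (hab : ∀ x ∈ P, ∀ y ∈ P, x * y = y * x)
    {c : Set (IrrCharacter (Subgroup.normalizer (P : Set G)))}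
    (hcD : IsDefectGroup p M c (P.subgroupOf (Subgroup.normalizer (P : Set G))))
    (hc : IsInducedBlock M (Subgroup.normalizer (P : Set G)) c B) :
    IsNilpotentBlock p M c ↔ IsNilpotentBlock p M B := by
  haveI : Fintype (Subgroup.normalizer (P : Set G)) := Fintype.ofFinite _
  have hB := hc.2.1
  have hPC : P ≤ Cn P := le_Cn_of_abelian hab le_rfl
  have hKL : Cn P ≤ Nn P := Cn_le_Nn P
  have hPL : P ≤ Nn P := hPC.trans hKL
  obtain ⟨β, -, hβ⟩ := exists_block_of_defectGroup hM hPC le_rfl hKL B hB hPD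
  have hmaxB := isMaxBP_of_isMaximalBrauerPair hM (isMaximalBrauerPair_of_isInducedBlock hM hPD hβ)
  have he₀ : IsBP p P (bl hM (Cn P) β) := hmaxB.1.1
  obtain ⟨c₁, hc₁⟩ := exists_downBlock_induced hM he₀.1 hPC hKL hβ.1
  have h3 : IsInducedBlock M (Nn P) c₁ B := isInducedBlock_tower hM hKL hc₁ hβ
  have hcc : c = c₁ := block_normalizer_unique hM P he₀.1 hc h3 hcD
  subst hcc
  have hf : IsInducedBlockIn M (Nn P) (Cn P) β c := isInducedBlockIn_of_downBlock hKL hβ.1 hc₁
  have hbr : br P (bl hM (Nn P) c) * bl hM (Cn P) β = bl hM (Cn P) β :=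
    Kn.br_mul_bl_of_inducedIn hM he₀.1 hPC hKL inf_le_left hKL hf
  have hdef : IsDef p ⊤ (blkR hM c) (P.subgroupOf (Nn P)) := isDef_of_isDefectGroup hM hc.1 hcD
  have h1 : NilB p (blkR hM c) ↔ ∀ g ∈ Nn P, g ∈ stabP P (bl hM (Cn P) β) → g ∈ Cn P := by
    apply nilB_iff_of_abelian hM hPL hKL hab he₀ (isBlk_blkR hM hc.1) _ hdef
    rw [← bl_eq_emb]
    exact hbr
  have hsup : P ⊔ Cn P = Cn P := sup_eq_right.2 hPC
  have h2 : NilB p (blkR hM B) ↔ stabP P (bl hM (Cn P) β) ≤ Cn P := by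
    apply hmaxB.abelian_nilB_iff hab
    rw [hsup]
    exact split_sub hM he₀.2
  rw [isNilpotentBlock_iff hM hc.1, isNilpotentBlock_iff hM hB, h1, h2]
  constructor
  · intro h g hg
    exact h g (stabP_le_Nn P _ hg) hg
  · intro h g _ hg
    exact h hg

end Cfsg.Agent.Lib.Helper20
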