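import Cfsg.Agent.Lib.Helper20.PCBlock3
import Cfsg.Agent.Lib.Helper20.FongReynolds2
import Cfsg.Agent.Lib.Helper21.AvgChar

set_option autoImplicit false
set_option linter.unusedSectionVars false
set_option linter.style.haveILetI false

/-!
# Blocks with a normal defect group: degrees
-/

namespace Cfsg.Agent.Lib.Helper20

open Cfsg Cfsg.Agent.Lib.Helper81 Cfsg.Agent.Lib.Helper19 Cfsg.Agent.Lib.Helper21
  Cfsg.Agent.Lib.Helper5
open scoped ComplexConjugate

variable {G : Type*} [Group G] [Fintype G] {P : Subgroup G}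

/-- trace of `y ∈ C_G(P)` on the multiplicity space of `η`: an algebraic integer. -/
theorem isIntegral_isotypic [Fintype P] {χ : G → ℂ} (hχ : IsCharacter G χ) {η : P → ℂ}
    (hη : IsCharacter P η) {y : G} (hy : y ∈ Subgroup.centralizer (P : Set G)) :
    IsIntegral ℤ ((Nat.card P : ℂ)⁻¹ * ∑ u : P, χ ((u : G) * y) * conj (η u)) := by
  classical
  let C := Subgroup.centralizer (P : Set G)
  have comm : ∀ (m : P) (n : C), Commute (P.subtype m) (C.subtype n) := by
    intro m n
    exact (Subgroup.mem_centralizer_iff.1 n.2 m m.2)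
  let π : P × C →* G := MonoidHom.noncommCoprod P.subtype C.subtype comm
  let Θ : P × C → ℂ := fun γ => χ (π γ) * conj (η γ.1)
  have hΘ : IsCharacter (P × C) Θ :=
    isCharacter_mul (isCharacter_comp_hom hχ π)
      (isCharacter_comp_hom (isCharacter_conj hη) (MonoidHom.fst P C))
  have hinj : Function.Injective (MonoidHom.inl P C) := fun a b h => (Prod.ext_iff.1 h).1
  let D : Subgroup (P × C) := (MonoidHom.inl P C).range
  haveI : Fintype D := Fintype.ofFinite _
  let e : P ≃* D := MonoidHom.ofInjective hinj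
  have h1 := isIntegral_avg_char hΘ D ((1 : P), (⟨y, hy⟩ : C)) (by
    rintro _ ⟨u, rfl⟩
    ext <;> simp)
  have hcard : Nat.card D = Nat.card P := (Nat.card_congr e.toEquiv).symm
  rw [hcard, ← Equiv.sum_comp e.toEquiv] at h1
  convert h1 using 3
  rename_i u _
  have e1 : ((e.toEquiv u : D) : P × C) = (u, 1) := rfl
  rw [e1]
  show _ = χ (π ((u, 1) * (1, ⟨y, hy⟩))) * conj (η ((u, 1) * ((1 : P), (⟨y, hy⟩ : C))).1)
  simp [π, MonoidHom.noncommCoprod_apply]

/-- expansion of `χ` along the characters of `P` of the right degree. -/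
theorem apply_eq_mul_sum [Fintype P] [Fintype (IrrCharacter P)] (hPn : P.Normal)
    (χ : IrrCharacter G) {η₀ : IrrCharacter P}
    (h₀ : classInner (fun u : P => (χ : G → ℂ) u) (η₀ : P → ℂ) ≠ 0) (s : G)
    [DecidablePred fun η : IrrCharacter P => (η : P → ℂ) 1 = (η₀ : P → ℂ) 1] :
    (χ : G → ℂ) s = (η₀ : P → ℂ) 1 * ∑ η : IrrCharacter P,
      if (η : P → ℂ) 1 = (η₀ : P → ℂ) 1 then
        (Nat.card P : ℂ)⁻¹ * ∑ u : P, (χ : G → ℂ) (s * u) * conj ((η : P → ℂ) u) else 0 := by
  classical
  let O : Set (IrrCharacter P) := {η | (η : P → ℂ) 1 = (η₀ : P → ℂ) 1}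
  have h10 := Cfsg.Agent.Lib.Helper81.irr_one_ne_zero χ.2
  have hO : ∀ g : G, cjBlock hPn g O = O := by
    intro g
    ext η
    rw [mem_cjBlock]
    show (cjIrr hPn g⁻¹ η : P → ℂ) 1 = _ ↔ (η : P → ℂ) 1 = _
    rw [cjIrr_coe, cjF_apply]
    have : (⟨g⁻¹ * ((1 : P) : G) * g⁻¹⁻¹, hPn.conj_mem _ (1 : P).2 g⁻¹⟩ : P) = 1 := by
      apply Subtype.ext; simp
    rw [this]
  have hcl : IsClassFunction G (ext0 P (blockCoeff O)) :=
    ext0_classFunction hPn (fun g => by rw [cjF_blockCoeff, hO])
  have hmem : ∀ η : IrrCharacter P, classInner (fun u : P => (χ : G → ℂ) u) (η : P → ℂ) ≠ 0 →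
      η ∈ O := by
    intro η hη
    by_contra hn
    apply hη
    apply clifford_inner_zero hPn χ.2 η₀.2 h₀ η.2
    intro g e
    apply hn
    show (η : P → ℂ) 1 = _
    rw [e, cjF_apply]
    apply congrArg
    apply Subtype.ext; simp
  have hom : omega (χ : G → ℂ) (ext0 P (blockCoeff O)) = 1 := by
    rw [omega_ext0, ← Finset.sum_div, sum_blockCoeff_mul, finsum_mem_irr]
    have hres : IsClassFunction P (fun u : P => (χ : G → ℂ) u) :=
      fun g x => irr_classFunction χ g x
    have h2 := congrFun (eq_sum_classInner_smul hres) 1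
    simp only [Finset.sum_apply, Pi.smul_apply, smul_eq_mul, Subgroup.coe_one] at h2
    have h3 : (∑ η : IrrCharacter P, if η ∈ O then
        (η : P → ℂ) 1 * classInner (fun u : P => (χ : G → ℂ) u) (η : P → ℂ) else 0)
        = (χ : G → ℂ) 1 := by
      rw [h2]
      apply Finset.sum_congr rfl
      intro η _
      split_ifs with hm
      · ring
      · have : classInner (fun u : P => (χ : G → ℂ) u) (η : P → ℂ) = 0 := by
          by_contra hne; exact hm (hmem η hne)
        rw [this, zero_mul]
    rw [h3, div_self h10]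
  have h4 := sum_mul_char_mul χ.2 hcl s
  rw [hom, one_mul] at h4
  rw [← h4, ← sum_subgroup_eq P (fun t => ext0 P (blockCoeff O) t * (χ : G → ℂ) (s * t))
    (fun g hg => by rw [ext0_of_not_mem P _ hg, zero_mul])]
  simp only [ext0_coe, blockCoeff, finsum_mem_irr]
  simp only [Finset.mul_sum, Finset.sum_mul]
  rw [Finset.sum_comm]
  apply Finset.sum_congr rfl
  intro η _
  have hiff : η ∈ O ↔ (η : P → ℂ) 1 = (η₀ : P → ℂ) 1 := Iff.rfl
  by_cases hm : (η : P → ℂ) 1 = (η₀ : P → ℂ) 1
  · simp only [if_pos hm, if_pos (hiff.2 hm)]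
    rw [Finset.mul_sum]
    apply Finset.sum_congr rfl
    intro u _
    rw [hm]; ring
  · simp only [if_neg hm, if_neg (fun h => hm (hiff.1 h))]
    simp

variable {p : ℕ} [Fact p.Prime] {M : Ideal AlgInt} {B : Set (IrrCharacter G)}

/-- degrees in a block with normal defect group `P`: `ν(ψ(1)) ≥ ν|G:P| + ν(η(1))` for `η` under
`ψ`. -/
theorem factorization_degree_ge [Fintype P] (hM : IsPModular p M) [hPn : P.Normal]
    (hD : IsDefectGroup p M B P) {ψ : IrrCharacter G} (hψ : ψ ∈ B) {η₀ : IrrCharacter P}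
    (h₀ : classInner (fun u : P => (ψ : G → ℂ) u) (η₀ : P → ℂ) ≠ 0) :
    P.index.factorization p + (charDegree (η₀ : P → ℂ)).factorization p
      ≤ (charDegree (ψ : G → ℂ)).factorization p := by
  classical
  haveI : Finite (IrrCharacter P) := finite_irrCharacter
  haveI : Fintype (IrrCharacter P) := Fintype.ofFinite _
  have hp : p.Prime := Fact.out
  obtain ⟨y, hy, S, hS⟩ := hD
  have hPC : P ≤ Subgroup.centralizer ({y} : Set G) := by
    rw [hS]; exact Subgroup.map_subtype_le _
  have hcomm : ∀ u ∈ P, u * y = y * u := by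
    intro u hu
    exact (Subgroup.mem_centralizer_singleton_iff.1 (hPC hu))
  have hyC : y ∈ Subgroup.centralizer (P : Set G) := by
    rw [Subgroup.mem_centralizer_iff]
    intro u hu
    exact hcomm u hu
  have hcard : Nat.card P = p ^ (Nat.card (Subgroup.centralizer ({y} : Set G))).factorization p := by
    rw [hS, Subgroup.card_map_of_injective (Subgroup.subtype_injective _), S.card_eq_multiplicity]
  have hi : P.index ≠ 0 := Subgroup.index_ne_zero_of_finite
  have hiC : (Subgroup.centralizer ({y} : Set G)).index ≠ 0 := Subgroup.index_ne_zero_of_finite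
  have hν : (Subgroup.centralizer ({y} : Set G)).index.factorization p = P.index.factorization p := by
    have a1 : (Nat.card G).factorization p = (Nat.card P).factorization p
        + P.index.factorization p := by
      rw [← P.card_mul_index, Nat.factorization_mul Nat.card_pos.ne' hi]; rfl
    have a2 : (Nat.card G).factorization p
        = (Nat.card (Subgroup.centralizer ({y} : Set G))).factorization p
        + (Subgroup.centralizer ({y} : Set G)).index.factorization p := by
      rw [← (Subgroup.centralizer ({y} : Set G)).card_mul_index,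
        Nat.factorization_mul Nat.card_pos.ne' hiC]; rfl
    rw [hcard, hp.factorization_pow, Finsupp.single_eq_same] at a1
    omega
  by_contra hlt
  push Not at hlt
  apply hy.2.2 ψ hψ
  have h1 := apply_eq_mul_sum hPn ψ h₀ y
  set α : ℂ := ∑ η : IrrCharacter P,
      if (η : P → ℂ) 1 = (η₀ : P → ℂ) 1 then
        (Nat.card P : ℂ)⁻¹ * ∑ u : P, (ψ : G → ℂ) (y * u) * conj ((η : P → ℂ) u) else 0 with hα
  have hαint : IsIntegral ℤ α := by
    apply IsIntegral.sum
    intro η _
    split_ifs
    · have := isIntegral_isotypic (isCharacter_of_isIrrCharacter ψ.2)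
        (isCharacter_of_isIrrCharacter η.2) hyC
      have e : ∑ u : P, (ψ : G → ℂ) (y * u) * conj ((η : P → ℂ) u)
          = ∑ u : P, (ψ : G → ℂ) ((u : G) * y) * conj ((η : P → ℂ) u) := by
        apply Finset.sum_congr rfl
        intro u _
        rw [hcomm u u.2]
      rw [e]
      exact this
    · exact isIntegral_zero
  have h2 : centralChar (ψ : G → ℂ) y
      = (((Subgroup.centralizer ({y} : Set G)).index * charDegree (η₀ : P → ℂ) : ℕ) : ℂ)
        / (charDegree (ψ : G → ℂ) : ℂ) * α := by
    rw [centralChar, h1, irr_one_eq η₀, irr_one_eq ψ]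
    push_cast
    ring
  rw [h2]
  apply memLocalIdeal_mul_right hM _ (memLocalRing_of_isIntegral hM hαint)
  rw [memLocalIdeal_natCast_div_iff hM (mul_ne_zero hiC (charDegree_ne_zero η₀))
    (charDegree_ne_zero ψ), Nat.factorization_mul hiC (charDegree_ne_zero η₀)]
  show _ < (Subgroup.centralizer ({y} : Set G)).index.factorization p
    + (charDegree (η₀ : P → ℂ)).factorization p
  rw [hν]
  exact hlt

end Cfsg.Agent.Lib.Helper20
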