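import Cfsg.Agent.S0887
import Cfsg.Agent.Lib.Helper20.FongReynolds2
import Cfsg.Agent.Lib.Helper21.Cover3
import Cfsg.Agent.Lib.Helper79.InvAboveHall
import Cfsg.Agent.Lib.Helper82.CharKer
import Cfsg.Agent.Lib.Helper82.Central

set_option autoImplicit false
set_option linter.unusedSectionVars false
set_option linter.style.haveILetI false

/-!
# Defect zero characters and normal subgroups (for weights)
-/

namespace Cfsg.Agent.Lib.Helper20

open Cfsg Cfsg.Agent.Lib.Helper81 Cfsg.Agent.Lib.Helper21
open scoped ComplexConjugate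

section DZ

variable {X : Type*} [Group X] [Fintype X] {p : ℕ} [Fact p.Prime]

/-- constituents of the restriction of a defect zero character to a normal subgroup have defect
zero. -/
theorem card_factorization_le_of_defect_zero (N : Subgroup X) [N.Normal] [Fintype N] {χ : X → ℂ}
    (hχ : IsIrrCharacter X χ) {θ : N → ℂ} (hθ : IsIrrCharacter N θ)
    (hcon : classInner (fun n : N => χ n) θ ≠ 0)
    (hdeg : (charDegree χ).factorization p = (Nat.card X).factorization p) :
    (Nat.card N).factorization p ≤ (charDegree θ).factorization p := by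
  have hc := Cfsg.Agent.Lib.Helper82.isChar_one_eq (isCharacter_of_isIrrCharacter hχ)
  have hd := Cfsg.Agent.Lib.Helper82.isChar_one_eq (isCharacter_of_isIrrCharacter hθ)
  obtain ⟨h1, h2⟩ := Cfsg.Agent.S0887.result N χ hχ θ hθ hcon _ _ hc hd
  have hc0 : charDegree χ ≠ 0 := (Cfsg.Agent.Lib.Helper82.isIrr_charDegree_pos hχ).ne'
  have hd0 : charDegree θ ≠ 0 := (Cfsg.Agent.Lib.Helper82.isIrr_charDegree_pos hθ).ne'
  have hi : N.index ≠ 0 := Subgroup.index_ne_zero_of_finite
  have h3 : charDegree θ * (charDegree χ / charDegree θ) = charDegree χ := Nat.mul_div_cancel' h1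
  have hq0 : charDegree χ / charDegree θ ≠ 0 := by
    intro h; rw [h, mul_zero] at h3; exact hc0 h3.symm
  have h4 : (charDegree χ).factorization p = (charDegree θ).factorization p
      + (charDegree χ / charDegree θ).factorization p := by
    conv_lhs => rw [← h3]
    rw [Nat.factorization_mul hd0 hq0]; rfl
  have h5 : (charDegree χ / charDegree θ).factorization p ≤ N.index.factorization p :=
    (Nat.factorization_le_iff_dvd hq0 hi).2 h2 p
  have h6 : (Nat.card X).factorization p = (Nat.card N).factorization p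
      + N.index.factorization p := by
    rw [← N.card_mul_index, Nat.factorization_mul Nat.card_pos.ne' hi]; rfl
  omega

/-- a group with a character of defect zero has no nontrivial normal `p`-subgroup. -/
theorem eq_bot_of_defect_zero (N : Subgroup X) [N.Normal] (hN : IsPGroup p N)
    (χ : IrrCharacter X)
    (hdeg : (charDegree (χ : X → ℂ)).factorization p = (Nat.card X).factorization p) :
    N = ⊥ := by
  classical
  haveI : Fintype N := Fintype.ofFinite _
  have hp : p.Prime := Fact.out
  obtain ⟨θ, hθ⟩ := exists_constituent_res N χ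
  have h1 := card_factorization_le_of_defect_zero N χ.2 θ.2 hθ hdeg
  obtain ⟨n, hn⟩ := IsPGroup.iff_card.1 hN
  rw [hn, hp.factorization_pow, Finsupp.single_eq_same] at h1
  have hd0 : charDegree (θ : N → ℂ) ≠ 0 := (Cfsg.Agent.Lib.Helper82.isIrr_charDegree_pos θ.2).ne'
  have h2 : p ^ n ∣ charDegree (θ : N → ℂ) := (hp.pow_dvd_iff_le_factorization hd0).2 h1
  have h3 := Nat.le_of_dvd (Nat.pos_of_ne_zero hd0) h2
  have h4 := Cfsg.Agent.Lib.Helper82.isIrr_sq_degree_mul_card_center_le θ.2
  have h5 : 1 ≤ Nat.card (Subgroup.center N) := Nat.card_pos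
  rw [hn] at h4
  have h6 : (p ^ n) ^ 2 ≤ p ^ n := by
    calc (p ^ n) ^ 2 ≤ charDegree (θ : N → ℂ) ^ 2 := Nat.pow_le_pow_left h3 2
      _ ≤ charDegree (θ : N → ℂ) ^ 2 * Nat.card (Subgroup.center N) := Nat.le_mul_of_pos_right _ h5
      _ ≤ p ^ n := h4
  have h7 : p ^ n = 1 := by
    have hpos : 0 < p ^ n := pow_pos hp.pos n
    nlinarith
  rw [h7] at hn
  exact Subgroup.card_eq_one.1 hn

end DZ

section Over

variable {X : Type*} [Group X] [Fintype X] {p : ℕ} [Fact p.Prime]

/-- A character `χ` of `X` with the normal subgroup `Q` in its kernel and of defect zero modulo `Q`;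
`ι : K → X` a homomorphism with normal image.  Then `χ ∘ ι` has an irreducible constituent of
defect zero modulo `ι⁻¹(Q)`. -/
theorem exists_constituent_of_weight (Q : Subgroup X) [Q.Normal] (χ : IrrCharacter X)
    (hker : ∀ x ∈ Q, (χ : X → ℂ) x = (χ : X → ℂ) 1)
    (hdeg : (charDegree (χ : X → ℂ)).factorization p + (Nat.card Q).factorization p
      = (Nat.card X).factorization p)
    {K : Type*} [Group K] [Fintype K] (ι : K →* X) (hι : ι.range.Normal) :
    ∃ θ : IrrCharacter K, classInner (fun k => (χ : X → ℂ) (ι k)) (θ : K → ℂ) ≠ 0 ∧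
      (Q.comap ι).index.factorization p ≤ (charDegree (θ : K → ℂ)).factorization p := by
  classical
  obtain ⟨ψ, hψ, hψχ⟩ := Cfsg.Agent.Lib.Helper82.isIrr_deflate χ.2 Q hker
  haveI : Fintype (X ⧸ Q) := Fintype.ofFinite _
  have hi : Q.index ≠ 0 := Subgroup.index_ne_zero_of_finite
  have hdψ : charDegree ψ = charDegree (χ : X → ℂ) := by
    unfold charDegree
    rw [← hψχ 1]; rfl
  have hcard : (Nat.card X).factorization p = (Nat.card Q).factorization p
      + (Nat.card (X ⧸ Q)).factorization p := by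
    rw [← Q.card_mul_index, Nat.factorization_mul Nat.card_pos.ne' hi]; rfl
  have hdegψ : (charDegree ψ).factorization p = (Nat.card (X ⧸ Q)).factorization p := by
    rw [hdψ]; omega
  set φ : K →* X ⧸ Q := (QuotientGroup.mk' Q).comp ι with hφ
  haveI hn : φ.range.Normal := by
    have : φ.range = ι.range.map (QuotientGroup.mk' Q) := by
      rw [hφ, MonoidHom.range_eq_map, MonoidHom.range_eq_map, ← Subgroup.map_map]
    rw [this]
    exact hι.map _ (QuotientGroup.mk'_surjective Q)
  haveI : Fintype φ.range := Fintype.ofFinite _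
  obtain ⟨θ, hθ⟩ := exists_constituent_res φ.range ⟨ψ, hψ⟩
  have h1 := card_factorization_le_of_defect_zero φ.range hψ θ.2 hθ hdegψ
  refine ⟨⟨fun k => (θ : φ.range → ℂ) (φ.rangeRestrict k),
    Cfsg.Agent.Lib.Helper82.isIrr_comp_surj θ.2 φ.rangeRestrict φ.rangeRestrict_surjective⟩, ?_, ?_⟩
  · have h2 := Cfsg.Agent.Lib.Helper79.classInner_comp_surj φ.rangeRestrict
      φ.rangeRestrict_surjective (fun n : φ.range => ψ n) (θ : φ.range → ℂ)
    have h3 : (fun k => (χ : X → ℂ) (ι k)) = fun k => ψ ((φ.rangeRestrict k : φ.range) : X ⧸ Q) := by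
      funext k
      exact (hψχ (ι k)).symm
    rw [h3]
    show classInner (fun x => ψ ((φ.rangeRestrict x : φ.range) : X ⧸ Q))
      (fun k => (θ : φ.range → ℂ) (φ.rangeRestrict k)) ≠ 0
    rw [h2]
    exact hθ
  · have h4 : Q.comap ι = φ.ker := by
      ext k
      rw [Subgroup.mem_comap, MonoidHom.mem_ker, hφ]
      exact (QuotientGroup.eq_one_iff (ι k)).symm
    rw [h4, Subgroup.index_ker]
    have h5 : charDegree (fun k => (θ : φ.range → ℂ) (φ.rangeRestrict k))
        = charDegree (θ : φ.range → ℂ) := by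
      unfold charDegree
      show ⌊((θ : φ.range → ℂ) (φ.rangeRestrict 1)).re⌋₊ = _
      rw [map_one]
    show _ ≤ (charDegree (fun k => (θ : φ.range → ℂ) (φ.rangeRestrict k))).factorization p
    rw [h5]
    exact h1

/-- same hypotheses: normal `p`-subgroups of `X` lie in `Q`. -/
theorem le_of_weight (Q : Subgroup X) [Q.Normal] (χ : IrrCharacter X)
    (hker : ∀ x ∈ Q, (χ : X → ℂ) x = (χ : X → ℂ) 1)
    (hdeg : (charDegree (χ : X → ℂ)).factorization p + (Nat.card Q).factorization p
      = (Nat.card X).factorization p)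
    (R : Subgroup X) [hR : R.Normal] (hRp : IsPGroup p R) : R ≤ Q := by
  classical
  obtain ⟨ψ, hψ, hψχ⟩ := Cfsg.Agent.Lib.Helper82.isIrr_deflate χ.2 Q hker
  haveI : Fintype (X ⧸ Q) := Fintype.ofFinite _
  have hi : Q.index ≠ 0 := Subgroup.index_ne_zero_of_finite
  have hdψ : charDegree ψ = charDegree (χ : X → ℂ) := by
    unfold charDegree
    rw [← hψχ 1]; rfl
  have hcard : (Nat.card X).factorization p = (Nat.card Q).factorization p
      + (Nat.card (X ⧸ Q)).factorization p := by
    rw [← Q.card_mul_index, Nat.factorization_mul Nat.card_pos.ne' hi]; rfl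
  have hdegψ : (charDegree ψ).factorization p = (Nat.card (X ⧸ Q)).factorization p := by
    rw [hdψ]; omega
  haveI : (R.map (QuotientGroup.mk' Q)).Normal := hR.map _ (QuotientGroup.mk'_surjective Q)
  have h1 := eq_bot_of_defect_zero (R.map (QuotientGroup.mk' Q)) (hRp.map _) ⟨ψ, hψ⟩ hdegψ
  intro r hr
  have h2 : (QuotientGroup.mk' Q) r ∈ R.map (QuotientGroup.mk' Q) := Subgroup.mem_map_of_mem _ hr
  rw [h1, Subgroup.mem_bot] at h2
  exact (QuotientGroup.eq_one_iff r).1 h2

end Over

section Idem

variable {X : Type*} [Group X] [Fintype X]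

/-- if the sum of `blockCoeff e * f` is `f 1` for a character `f`, every constituent of `f` lies in
`e`. -/
theorem mem_of_sum_blockCoeff_eq (e : Set (IrrCharacter X)) {f : X → ℂ} (hf : IsCharacter X f)
    (h : ∑ x : X, blockCoeff e x * f x = f 1) {θ : IrrCharacter X}
    (hθ : classInner f (θ : X → ℂ) ≠ 0) : θ ∈ e := by
  classical
  haveI : Finite (IrrCharacter X) := finite_irrCharacter
  haveI : Fintype (IrrCharacter X) := Fintype.ofFinite _
  by_contra hne
  have h1 : ∑ x : X, blockCoeff eᶜ x * f x = 0 := by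
    rw [sum_blockCoeff_mul, finsum_mem_irr]
    rw [sum_blockCoeff_mul, finsum_mem_irr] at h
    have h2 := congrFun (eq_sum_classInner_smul (isClassFunction_of_isCharacter hf)) 1
    rw [Finset.sum_apply] at h2
    simp only [Pi.smul_apply, smul_eq_mul] at h2
    have h3 : ∑ θ : IrrCharacter X, (if θ ∈ eᶜ then (θ : X → ℂ) 1 * classInner f (θ : X → ℂ) else 0)
        + ∑ θ : IrrCharacter X, (if θ ∈ e then (θ : X → ℂ) 1 * classInner f (θ : X → ℂ) else 0)
        = f 1 := by
      rw [← Finset.sum_add_distrib]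
      conv_rhs => rw [h2]
      apply Finset.sum_congr rfl; intro θ _
      by_cases hθe : θ ∈ e
      · rw [if_pos hθe, if_neg (show ¬ θ ∈ eᶜ from fun h' => h' hθe), zero_add, mul_comm]
      · rw [if_neg hθe, if_pos (show θ ∈ eᶜ from hθe), add_zero, mul_comm]
    rw [h] at h3
    exact add_eq_right.1 h3
  exact ((sum_blockCoeff_mul_ne_zero_iff eᶜ hf).2 ⟨θ, hne, hθ⟩) h1

end Idem

end Cfsg.Agent.Lib.Helper20
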